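import Mathlib
import Cfsg.Prelude.Def_LieTypeChar

/-!
Core of S2363 (orders of groups of Lie type against the `p`-part): the goal as a predicate,
a reduction to explicit bounds, and transport along isomorphisms.
-/

set_option autoImplicit false

namespace Cfsg.Agent.Lib.Lead.LTB

/-- The conclusion of S2363 for a group `G` and a prime `p`. -/
def Goal (p : ℕ) (G : Type*) [Group G] : Prop :=
  Nat.card G < p ^ (3 * (Nat.card G).factorization p) ∧
    ((¬ ∃ (F : Type) (_ : Field F) (_ : Fintype F), Fintype.card F = p ^ (Nat.card G).factorization p ∧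
        Nonempty (G ≃* Matrix.ProjectiveSpecialLinearGroup (Fin 2) F)) →
      Nat.card G ^ 3 < p ^ (8 * (Nat.card G).factorization p))

/-- If `p ^ N` divides `|G|`, `|G| < p ^ (3 N)` and `|G| ^ 3 < p ^ (8 N)`, the goal holds. -/
theorem goal_of_bounds {G : Type*} [Group G] [Finite G] (p : ℕ) (hp : p.Prime) (N : ℕ)
    (hdvd : p ^ N ∣ Nat.card G) (h1 : Nat.card G < p ^ (3 * N))
    (h2 : Nat.card G ^ 3 < p ^ (8 * N)) : Goal p G := by
  have hpos : Nat.card G ≠ 0 := Nat.card_pos.ne'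
  have hN : N ≤ (Nat.card G).factorization p :=
    (hp.pow_dvd_iff_le_factorization hpos).1 hdvd
  have hp1 : 1 ≤ p := hp.one_lt.le
  refine ⟨lt_of_lt_of_le h1 (Nat.pow_le_pow_right hp1 (by omega)), fun _ => ?_⟩
  exact lt_of_lt_of_le h2 (Nat.pow_le_pow_right hp1 (by omega))

/-- Version with a multiple of the order: `d * |G| = p ^ N * M`, `p ∤ d`. -/
theorem goal_of_mul_bounds {G : Type*} [Group G] [Finite G] (p : ℕ) (hp : p.Prime) (N d M : ℕ)
    (hd : ¬ p ∣ d) (heq : d * Nat.card G = p ^ N * M) (h1 : Nat.card G < p ^ (3 * N))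
    (h2 : Nat.card G ^ 3 < p ^ (8 * N)) : Goal p G := by
  refine goal_of_bounds p hp N ?_ h1 h2
  have hcop : Nat.Coprime (p ^ N) d := Nat.Coprime.pow_left N ((Nat.Prime.coprime_iff_not_dvd hp).2 hd)
  exact hcop.dvd_of_dvd_mul_left (Dvd.intro M heq.symm)

/-- Field-size version: with `q = p ^ f`, if `q ^ N'` divides `|G|`, `|G| < q ^ D` and `3 D ≤ 8 N'`,
the goal holds. -/
theorem goal_of_q_bounds {G : Type*} [Group G] [Finite G] (p : ℕ) (hp : p.Prime) (f N' D : ℕ)
    (hdvd : (p ^ f) ^ N' ∣ Nat.card G) (hlt : Nat.card G < (p ^ f) ^ D) (hD : 3 * D ≤ 8 * N') :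
    Goal p G := by
  have hp1 : 1 ≤ p := hp.one_lt.le
  have hlt' : Nat.card G < p ^ (f * D) := by rwa [← pow_mul] at hlt
  refine goal_of_bounds p hp (f * N') (by rwa [← pow_mul] at hdvd) ?_ ?_
  · refine lt_of_lt_of_le hlt' (Nat.pow_le_pow_right hp1 ?_)
    have : f * D ≤ f * (3 * N') := Nat.mul_le_mul_left f (by omega)
    calc f * D ≤ f * (3 * N') := this
      _ = 3 * (f * N') := by ring
  · have h3 : Nat.card G ^ 3 < (p ^ (f * D)) ^ 3 := Nat.pow_lt_pow_left hlt' (by norm_num)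
    refine lt_of_lt_of_le h3 ?_
    rw [← pow_mul]
    refine Nat.pow_le_pow_right hp1 ?_
    calc f * D * 3 = f * (3 * D) := by ring
      _ ≤ f * (8 * N') := Nat.mul_le_mul_left f hD
      _ = 8 * (f * N') := by ring

/-- Field-size version with a cofactor: `d * |G| = q ^ N' * M` with `p ∤ d` and `M < q ^ E`. -/
theorem goal_of_q_mul_bounds {G : Type*} [Group G] [Finite G] (p : ℕ) (hp : p.Prime)
    (f N' E d M : ℕ) (hd : ¬ p ∣ d) (heq : d * Nat.card G = (p ^ f) ^ N' * M)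
    (hM : M < (p ^ f) ^ E) (hD : 3 * (N' + E) ≤ 8 * N') : Goal p G := by
  have hd0 : 0 < d := Nat.pos_of_ne_zero (fun h => hd (h ▸ dvd_zero p))
  refine goal_of_q_bounds p hp f N' (N' + E) ?_ ?_ hD
  · have hcop : Nat.Coprime ((p ^ f) ^ N') d :=
      Nat.Coprime.pow_left N' (Nat.Coprime.pow_left f ((Nat.Prime.coprime_iff_not_dvd hp).2 hd))
    exact hcop.dvd_of_dvd_mul_left (Dvd.intro M heq.symm)
  · have hq : 0 < (p ^ f) ^ N' := pos_of_ne_zero (pow_ne_zero _ (pow_ne_zero _ hp.ne_zero))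
    calc Nat.card G ≤ d * Nat.card G := Nat.le_mul_of_pos_left _ hd0
      _ = (p ^ f) ^ N' * M := heq
      _ < (p ^ f) ^ N' * (p ^ f) ^ E := Nat.mul_lt_mul_of_pos_left hM hq
      _ = (p ^ f) ^ (N' + E) := (pow_add _ _ _).symm

/-- The goal is invariant under isomorphism. -/
theorem goal_of_mulEquiv {G H : Type*} [Group G] [Group H] (p : ℕ) (e : G ≃* H) (h : Goal p H) :
    Goal p G := by
  have hc : Nat.card G = Nat.card H := Nat.card_congr e.toEquiv
  unfold Goal at h ⊢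
  rw [hc]
  refine ⟨h.1, fun hne => h.2 ?_⟩
  rintro ⟨F, i1, i2, hF, ⟨f⟩⟩
  exact hne ⟨F, i1, i2, hF, ⟨e.trans f⟩⟩

end Cfsg.Agent.Lib.Lead.LTB
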