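import Mathlib
import Cfsg.Prelude.Def_LieTypeChar
import Cfsg.Agent.Lib.Lead.LTBCore

/-!
S2363 skeleton: one arithmetic statement per family of groups of Lie type.  Each `…Stmt` takes the
order formula of the family (in the exact form of the landed statement) as a hypothesis and asks for
`Goal p` of the explicit group.  Tools: `goal_of_q_bounds`, `goal_of_q_mul_bounds` in `LTBCore`.
-/

set_option autoImplicit false

namespace Cfsg.Agent.Lib.Lead.LTB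

open Cfsg

/-- PSL_n(F), n ≥ 2 (n = 2: the exceptional clause, with `F` itself as witness). -/
def PslStmt : Prop :=
  ∀ (p : ℕ), p.Prime → ∀ (F : Type) [Field F] [Fintype F] [CharP F p] (n : ℕ), 2 ≤ n →
    (n = 2 → 4 ≤ Fintype.card F) →
    Nat.gcd n (Fintype.card F - 1) * ((Fintype.card F - 1) *
        Nat.card (Matrix.ProjectiveSpecialLinearGroup (Fin n) F)) =
      ∏ i : Fin n, (Fintype.card F ^ n - Fintype.card F ^ (i : ℕ)) →
    Goal p (Matrix.ProjectiveSpecialLinearGroup (Fin n) F)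

/-- PSp_{2m}(F), m ≥ 2. -/
def PspStmt : Prop :=
  ∀ (p : ℕ), p.Prime → ∀ (F : Type) [Field F] [Fintype F] [CharP F p] (m : ℕ), 2 ≤ m →
    Nat.card (Matrix.symplecticGroup (Fin m) F) =
      Fintype.card F ^ (m ^ 2) * ∏ i ∈ Finset.range m, (Fintype.card F ^ (2 * (i + 1)) - 1) →
    Nat.card (Subgroup.center (Matrix.symplecticGroup (Fin m) F)) = Nat.gcd 2 (Fintype.card F - 1) →
    Goal p (PSp m F)

/-- PSU_n(q) over `F` with `q ^ 2` elements, n ≥ 3. -/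
def PsuStmt : Prop :=
  ∀ (p : ℕ), p.Prime → ∀ (F : Type) [Field F] [Fintype F] [CharP F p] (n q : ℕ),
    Fintype.card F = q ^ 2 → 3 ≤ n →
    Nat.gcd n (q + 1) * ((q + 1) * Nat.card (PSU n F q)) =
      q ^ (n * (n - 1) / 2) *
        ∏ i ∈ Finset.range n, (if Even i then q ^ (i + 1) + 1 else q ^ (i + 1) - 1) →
    Goal p (PSU n F q)

/-- PΩ_{2m+1}(F), q odd, m ≥ 3. -/
def OmegaOddStmt : Prop :=
  ∀ (p : ℕ), p.Prime → ∀ (F : Type) [Field F] [Fintype F] [CharP F p] (m : ℕ), 3 ≤ m →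
    Odd (Fintype.card F) →
    2 * Nat.card (POmega F (quadFormOdd m F)) =
      Fintype.card F ^ (m ^ 2) * ∏ i ∈ Finset.range m, (Fintype.card F ^ (2 * (i + 1)) - 1) →
    Goal p (POmega F (quadFormOdd m F))

/-- PΩ⁺_{2m}(F), m ≥ 4. -/
def OmegaPlusStmt : Prop :=
  ∀ (p : ℕ), p.Prime → ∀ (F : Type) [Field F] [Fintype F] [CharP F p] (m : ℕ), 4 ≤ m →
    Nat.gcd 4 (Fintype.card F ^ m - 1) * Nat.card (POmega F (quadFormPlus m F)) =
      Fintype.card F ^ (m * (m - 1)) * (Fintype.card F ^ m - 1) *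
        ∏ i ∈ Finset.range (m - 1), (Fintype.card F ^ (2 * (i + 1)) - 1) →
    Goal p (POmega F (quadFormPlus m F))

/-- PΩ⁻_{2m}(F), m ≥ 4. -/
def OmegaMinusStmt : Prop :=
  ∀ (p : ℕ), p.Prime → ∀ (F : Type) [Field F] [Fintype F] [CharP F p] (m : ℕ) (a b : F), 4 ≤ m →
    Nat.gcd 4 (Fintype.card F ^ m + 1) * Nat.card (POmega F (quadFormMinus (m - 1) F a b)) =
      Fintype.card F ^ (m * (m - 1)) * (Fintype.card F ^ m + 1) *
        ∏ i ∈ Finset.range (m - 1), (Fintype.card F ^ (2 * (i + 1)) - 1) →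
    Goal p (POmega F (quadFormMinus (m - 1) F a b))

/-- G₂(F). -/
def G2Stmt : Prop :=
  ∀ (p : ℕ), p.Prime → ∀ (F : Type) [Field F] [Fintype F] [CharP F p],
    Nat.card ↥(Lie.chevG2.group F) =
      Fintype.card F ^ 6 * (Fintype.card F ^ 2 - 1) * (Fintype.card F ^ 6 - 1) →
    Goal p ↥(Lie.chevG2.group F)

/-- F₄(F). -/
def F4Stmt : Prop :=
  ∀ (p : ℕ), p.Prime → ∀ (F : Type) [Field F] [Fintype F] [CharP F p],
    Nat.card ↥(Lie.chevF4.group F) =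
      Fintype.card F ^ 24 * (Fintype.card F ^ 2 - 1) * (Fintype.card F ^ 6 - 1) *
        (Fintype.card F ^ 8 - 1) * (Fintype.card F ^ 12 - 1) →
    Goal p ↥(Lie.chevF4.group F)

/-- E₆(F). -/
def E6Stmt : Prop :=
  ∀ (p : ℕ), p.Prime → ∀ (F : Type) [Field F] [Fintype F] [CharP F p],
    Nat.gcd 3 (Fintype.card F - 1) * Nat.card ↥(Lie.chevE6.group F) =
      Fintype.card F ^ 36 * (Fintype.card F ^ 2 - 1) * (Fintype.card F ^ 5 - 1) *
        (Fintype.card F ^ 6 - 1) * (Fintype.card F ^ 8 - 1) * (Fintype.card F ^ 9 - 1) *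
        (Fintype.card F ^ 12 - 1) →
    Goal p ↥(Lie.chevE6.group F)

/-- E₇(F). -/
def E7Stmt : Prop :=
  ∀ (p : ℕ), p.Prime → ∀ (F : Type) [Field F] [Fintype F] [CharP F p],
    Nat.gcd 2 (Fintype.card F - 1) * Nat.card ↥(Lie.chevE7.group F) =
      Fintype.card F ^ 63 * (Fintype.card F ^ 2 - 1) * (Fintype.card F ^ 6 - 1) *
        (Fintype.card F ^ 8 - 1) * (Fintype.card F ^ 10 - 1) * (Fintype.card F ^ 12 - 1) *
        (Fintype.card F ^ 14 - 1) * (Fintype.card F ^ 18 - 1) →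
    Goal p ↥(Lie.chevE7.group F)

/-- E₈(F). -/
def E8Stmt : Prop :=
  ∀ (p : ℕ), p.Prime → ∀ (F : Type) [Field F] [Fintype F] [CharP F p],
    Nat.card ↥(Lie.chevE8.group F) =
      Fintype.card F ^ 120 * (Fintype.card F ^ 2 - 1) * (Fintype.card F ^ 8 - 1) *
        (Fintype.card F ^ 12 - 1) * (Fintype.card F ^ 14 - 1) * (Fintype.card F ^ 18 - 1) *
        (Fintype.card F ^ 20 - 1) * (Fintype.card F ^ 24 - 1) * (Fintype.card F ^ 30 - 1) →
    Goal p ↥(Lie.chevE8.group F)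

/-- ²E₆(q) over `K` with `q ^ 2` elements. -/
def TwE6Stmt : Prop :=
  ∀ (p : ℕ), p.Prime → ∀ (K : Type) [Field K] [Fintype K] [CharP K p] (q : ℕ), IsPrimePow q →
    Fintype.card K = q ^ 2 →
    Nat.gcd 3 (q + 1) * Nat.card ↥(Lie.twistedE6 K q) =
      q ^ 36 * (q ^ 2 - 1) * (q ^ 5 + 1) * (q ^ 6 - 1) * (q ^ 8 - 1) * (q ^ 9 + 1) * (q ^ 12 - 1) →
    Goal p ↥(Lie.twistedE6 K q)

/-- ³D₄(q) over `K` with `q ^ 3` elements. -/
def TwD4Stmt : Prop :=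
  ∀ (p : ℕ), p.Prime → ∀ (K : Type) [Field K] [Fintype K] [CharP K p] (q : ℕ), IsPrimePow q →
    Fintype.card K = q ^ 3 →
    Nat.card ↥(Lie.twistedD4 K q) = q ^ 12 * (q ^ 2 - 1) * (q ^ 6 - 1) * (q ^ 8 + q ^ 4 + 1) →
    Goal p ↥(Lie.twistedD4 K q)

/-- Sz(2^(2m+1)) (here `p = 2`). -/
def SzStmt : Prop :=
  ∀ (F : Type) [Field F] [Fintype F] (m : ℕ), 1 ≤ m → Fintype.card F = 2 ^ (2 * m + 1) →
    Nat.card ↥(Lie.Sz F (2 ^ (m + 1))) =
      (2 ^ (2 * m + 1)) ^ 2 * (2 ^ (2 * m + 1) - 1) * ((2 ^ (2 * m + 1)) ^ 2 + 1) →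
    Goal 2 ↥(Lie.Sz F (2 ^ (m + 1)))

/-- The weak facts needed for the Ree groups ²G₂(3^(2m+1)). -/
def ReeFact : Prop :=
  ∀ (K : Type) [Field K] [Fintype K] (m : ℕ), 1 ≤ m → Fintype.card K = 3 ^ (2 * m + 1) →
    (3 ^ (2 * m + 1)) ^ 3 ∣ Nat.card ↥(Lie.twistedG2 K (3 ^ m)) ∧
      Nat.card ↥(Lie.twistedG2 K (3 ^ m)) < (3 ^ (2 * m + 1)) ^ 8

/-- The weak facts needed for the Ree groups ²F₄(2^(2m+1)). -/
def TwF4Fact : Prop :=
  ∀ (K : Type) [Field K] [Fintype K] (m : ℕ), 1 ≤ m → Fintype.card K = 2 ^ (2 * m + 1) →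
    (2 ^ (2 * m + 1)) ^ 12 ∣ Nat.card ↥(Lie.twistedF4 K (2 ^ m)) ∧
      Nat.card ↥(Lie.twistedF4 K (2 ^ m)) < (2 ^ (2 * m + 1)) ^ 32

end Cfsg.Agent.Lib.Lead.LTB
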