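import Mathlib

/-!
Project PI (S5989, helper96), piece U1: rank of an endomorphism as the sum of the ranks on two
invariant complementary subspaces.
-/

set_option autoImplicit false
set_option linter.unusedSectionVars false
set_option linter.unusedVariables false

namespace Cfsg.Agent.Lib.Lead.Pi

open Module

universe u

variable {F : Type u} [Field F] [Fintype F] {V : Type u} [AddCommGroup V] [Module F V]
  [FiniteDimensional F V]

-- PIECE U1
theorem finrank_range_of_compl (N : Module.End F V) (W W' : Submodule F V) (hc : IsCompl W W')
    (hW : W.map N ≤ W) (hW' : W'.map N ≤ W') :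
    finrank F (LinearMap.range N) = finrank F (W.map N) + finrank F (W'.map N) := by
  have h1 : LinearMap.range N = W.map N ⊔ W'.map N := by
    rw [← Submodule.map_sup, hc.sup_eq_top, Submodule.map_top]
  have h2 : W.map N ⊓ W'.map N = ⊥ := by
    have h : W.map N ⊓ W'.map N ≤ W ⊓ W' := inf_le_inf hW hW'
    rw [hc.inf_eq_bot] at h
    exact le_bot_iff.mp h
  have h3 := Submodule.finrank_sup_add_finrank_inf_eq (W.map N) (W'.map N)
  rw [h2, finrank_bot] at h3
  rw [h1]
  omega

end Cfsg.Agent.Lib.Lead.Pi
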