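import Mathlib

/-!
Project PI (S5989, helper96), piece U4: `dim (ker N ⊓ range N) + rank N² = rank N`.
-/

set_option autoImplicit false
set_option linter.unusedSectionVars false
set_option linter.unusedVariables false

namespace Cfsg.Agent.Lib.Lead.Pi

open Module

universe u

variable {F : Type u} [Field F] [Fintype F] {V : Type u} [AddCommGroup V] [Module F V]
  [FiniteDimensional F V]

/-- Rank-nullity for the restriction of `N` to a subspace `W`. -/
theorem piU4_rank_nullity (N : Module.End F V) (W : Submodule F V) :
    finrank F ↥(W.map N) + finrank F ↥(W ⊓ LinearMap.ker N) = finrank F ↥W := by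
  have h := LinearMap.finrank_range_add_finrank_ker (N.comp W.subtype)
  have hr : LinearMap.range (N.comp W.subtype) = W.map N := by
    rw [LinearMap.range_comp, Submodule.range_subtype]
  have e : (LinearMap.ker (N.comp W.subtype)).map W.subtype = W ⊓ LinearMap.ker N := by
    ext x
    constructor
    · rintro ⟨y, hy, rfl⟩
      refine ⟨y.2, ?_⟩
      have : N (y : V) = 0 := by simpa using hy
      exact LinearMap.mem_ker.mpr this
    · rintro ⟨hx, hx'⟩
      refine ⟨⟨x, hx⟩, ?_, rfl⟩
      have : N x = 0 := LinearMap.mem_ker.mp hx'
      simpa using this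
  have hk : finrank F ↥(LinearMap.ker (N.comp W.subtype)) = finrank F ↥(W ⊓ LinearMap.ker N) := by
    rw [← e]
    exact (Submodule.equivMapOfInjective W.subtype W.injective_subtype _).finrank_eq
  rw [hr, hk] at h
  exact h

-- PIECE U4
theorem finrank_ker_inf_range (N : Module.End F V) :
    finrank F ↥(LinearMap.ker N ⊓ LinearMap.range N) + finrank F (LinearMap.range (N * N))
      = finrank F (LinearMap.range N) := by
  have h1 := piU4_rank_nullity N (LinearMap.range N)
  have h2 : (LinearMap.range N).map N = LinearMap.range (N * N) := by
    rw [Module.End.mul_eq_comp, LinearMap.range_comp]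
  rw [h2, inf_comm] at h1
  omega

end Cfsg.Agent.Lib.Lead.Pi
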