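import Mathlib
import Cfsg.Agent.Lib.Helper15.FH0

/-!
# Job piece T2 of S1142 (Feit–Higman, poster helper15): `fh_trig_sum_odd`

The finite trigonometric sum identity for `m` odd (`u = v`).
-/

set_option autoImplicit false

namespace Cfsg.Agent.Lib.Lead.FHT2

open Cfsg Cfsg.Agent.Lib.Helper8 Cfsg.Agent.Lib.Helper15.FH
open Finset

/-- splitting a sum over `range (2 * N)` into pairs -/
theorem sum_range_two_mul (f : ℕ → ℝ) (N : ℕ) :
    ∑ k ∈ range (2 * N), f k = ∑ i ∈ range N, (f (2 * i) + f (2 * i + 1)) := by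
  induction N with
  | zero => simp
  | succ N ih =>
    rw [show 2 * (N + 1) = 2 * N + 1 + 1 by ring, sum_range_succ, sum_range_succ, ih,
      sum_range_succ]
    ring

/-- telescoping sum of cosines along an arithmetic progression of step `2 θ` -/
theorem tele (θ β : ℝ) (N : ℕ) :
    2 * Real.sin θ * ∑ i ∈ range N, Real.cos (2 * (i : ℝ) * θ + β)
      = Real.sin ((2 * (N : ℝ) - 1) * θ + β) - Real.sin (β - θ) := by
  induction N with
  | zero =>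
    have e : (2 * ((0 : ℕ) : ℝ) - 1) * θ + β = β - θ := by push_cast; ring
    rw [e]; simp
  | succ N ih =>
    rw [sum_range_succ, mul_add, ih]
    have e1 : (2 * ((N + 1 : ℕ) : ℝ) - 1) * θ + β = (2 * (N : ℝ) * θ + β) + θ := by
      push_cast; ring
    have e2 : (2 * (N : ℝ) - 1) * θ + β = (2 * (N : ℝ) * θ + β) - θ := by ring
    rw [e1, e2, Real.sin_add, Real.sin_sub]
    ring

theorem trB_eq_trA (u θ : ℝ) (k : ℕ) : fhTrB u u θ k = fhTrA u u θ k := by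
  rw [fhTrA_def, fhTrB_def]

theorem term_even (u θ : ℝ) (hu : 0 < u) (i : ℕ) :
    (altP u u (2 * i))⁻¹ * fhTrA u u θ (2 * i) ^ 2 = 4 * Real.cos ((i : ℝ) * θ) ^ 2 := by
  have hdiv : 2 * i / 2 = i := Nat.mul_div_cancel_left i (by norm_num)
  rw [altP_two_mul, fhTrA_def, if_pos (even_two_mul i), hdiv, Real.sqrt_mul_self hu.le]
  have hu0 : u ≠ 0 := hu.ne'
  field_simp
  ring

theorem term_odd (u θ : ℝ) (hu : 0 < u) (hS : Real.sin θ ≠ 0) (i : ℕ) :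
    (altP u u (2 * i + 1))⁻¹ * fhTrA u u θ (2 * i + 1) ^ 2 =
      (u - 1) ^ 2 / u *
        (Real.sin ((i : ℝ) * θ) + Real.sin (((i : ℝ) + 1) * θ)) ^ 2 / Real.sin θ ^ 2 := by
  have hdiv : (2 * i + 1) / 2 = i := by omega
  have hodd : ¬ Even (2 * i + 1) := by
    rw [Nat.not_even_iff_odd]; exact odd_two_mul_add_one i
  rw [altP_two_mul_add_one, fhTrA_def, if_neg hodd, hdiv, Real.sqrt_mul_self hu.le]
  have hu0 : u ≠ 0 := hu.ne'
  field_simp
  ring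

theorem fh_trig_sum_odd (m j : ℕ) (u : ℝ) (hu : 0 < u) (hj : 0 < j)
    (hjm : 2 * j < m) (hm : Odd m) :
    ∑ k ∈ Finset.range (m + 1), (altP u u k)⁻¹ * fhTrA u u (fhθ m j) k ^ 2 +
      ∑ k ∈ Finset.Ico 1 m, (altP u u k)⁻¹ * fhTrB u u (fhθ m j) k ^ 2 = fhSigma m u u j := by
  obtain ⟨n, rfl⟩ := hm
  obtain ⟨θ, hθdef⟩ : ∃ θ : ℝ, θ = fhθ (2 * n + 1) j := ⟨_, rfl⟩
  have hu0 : u ≠ 0 := hu.ne'
  have hpi := Real.pi_pos
  have hm0 : ((2 * n + 1 : ℕ) : ℝ) ≠ 0 := by positivity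
  have hθ : (2 * (n : ℝ) + 1) * θ = (j : ℝ) * (2 * Real.pi) := by
    rw [hθdef, fhθ_def]
    push_cast
    have : (2 * (n : ℝ) + 1) ≠ 0 := by positivity
    field_simp
  have hθpos : 0 < θ := by
    rw [hθdef, fhθ_def]
    have : (0 : ℝ) < j := by exact_mod_cast hj
    positivity
  have hθlt : θ < Real.pi := by
    have h1 : (2 * (n : ℝ) + 1) * θ < (2 * (n : ℝ) + 1) * Real.pi := by
      rw [hθ]
      have : (2 * (j : ℝ)) < 2 * (n : ℝ) + 1 := by exact_mod_cast hjm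
      nlinarith
    have h2 : (0 : ℝ) < 2 * (n : ℝ) + 1 := by positivity
    exact lt_of_mul_lt_mul_left h1 h2.le
  have hSpos : 0 < Real.sin θ := Real.sin_pos_of_pos_of_lt_pi hθpos hθlt
  have hS : Real.sin θ ≠ 0 := hSpos.ne'
  -- consequences of (2n+1) θ = 2 π j
  have hsin_full : Real.sin ((2 * (n : ℝ) + 1) * θ) = 0 := by
    rw [hθ]
    have e : (j : ℝ) * (2 * Real.pi) = ((2 * j : ℕ) : ℝ) * Real.pi := by push_cast; ring
    rw [e]; exact Real.sin_nat_mul_pi (2 * j)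
  have hcos2n : Real.cos (2 * (n : ℝ) * θ) = Real.cos θ := by
    have e : 2 * (n : ℝ) * θ = (j : ℝ) * (2 * Real.pi) - θ := by rw [← hθ]; ring
    rw [e, Real.cos_nat_mul_two_pi_sub]
  have hsin2n : Real.sin (2 * (n : ℝ) * θ) = - Real.sin θ := by
    have e : 2 * (n : ℝ) * θ = (j : ℝ) * (2 * Real.pi) - θ := by rw [← hθ]; ring
    rw [e, Real.sin_nat_mul_two_pi_sub]
  have hC : Real.sin ((n : ℝ) * θ) + Real.sin (((n : ℝ) + 1) * θ) = 0 := by
    have e : ((n : ℝ) + 1) * θ = (j : ℝ) * (2 * Real.pi) - (n : ℝ) * θ := by rw [← hθ]; ring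
    rw [e, Real.sin_nat_mul_two_pi_sub]; ring
  -- the three cosine sums
  have hA : ∑ i ∈ range (n + 1), Real.cos (2 * (i : ℝ) * θ) = 1 / 2 := by
    have h := tele θ 0 (n + 1)
    simp only [add_zero] at h
    have e : (2 * ((n + 1 : ℕ) : ℝ) - 1) * θ = (2 * (n : ℝ) + 1) * θ := by push_cast; ring
    rw [e, hsin_full, zero_sub, zero_sub, Real.sin_neg] at h
    have h' : 2 * Real.sin θ * ∑ i ∈ range (n + 1), Real.cos (2 * (i : ℝ) * θ)
        = 2 * Real.sin θ * (1 / 2) := by rw [h]; ring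
    exact mul_left_cancel₀ (by positivity : 2 * Real.sin θ ≠ 0) h'
  have hA' : ∑ i ∈ range n, Real.cos (2 * (i : ℝ) * θ) = 1 / 2 - Real.cos θ := by
    rw [sum_range_succ, hcos2n] at hA
    linarith
  have hA'' : ∑ i ∈ range n, Real.cos (2 * ((i : ℝ) + 1) * θ) = -1 / 2 := by
    rw [sum_range_succ'] at hA
    have e : ∀ i : ℕ, Real.cos (2 * ((i + 1 : ℕ) : ℝ) * θ) = Real.cos (2 * ((i : ℝ) + 1) * θ) := by
      intro i; push_cast; rfl
    simp only [e] at hA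
    simp only [Nat.cast_zero, mul_zero, zero_mul, Real.cos_zero] at hA
    linarith
  have hB : ∑ i ∈ range n, Real.cos ((2 * (i : ℝ) + 1) * θ) = -1 / 2 := by
    have h := tele θ θ n
    have e1 : ∀ i : ℕ, 2 * (i : ℝ) * θ + θ = (2 * (i : ℝ) + 1) * θ := by intro i; ring
    simp only [e1] at h
    have e2 : (2 * (n : ℝ) - 1) * θ + θ = 2 * (n : ℝ) * θ := by ring
    rw [e2, hsin2n, sub_self, Real.sin_zero, sub_zero] at h
    have h' : 2 * Real.sin θ * ∑ i ∈ range n, Real.cos ((2 * (i : ℝ) + 1) * θ)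
        = 2 * Real.sin θ * (-1 / 2) := by rw [h]; ring
    exact mul_left_cancel₀ (by positivity : 2 * Real.sin θ ≠ 0) h'
  -- pointwise identities
  have hcsq : ∀ i : ℕ, 4 * Real.cos ((i : ℝ) * θ) ^ 2 = 2 + 2 * Real.cos (2 * (i : ℝ) * θ) := by
    intro i
    have e : 2 * (i : ℝ) * θ = 2 * ((i : ℝ) * θ) := by ring
    rw [e, Real.cos_sq ((i : ℝ) * θ)]; ring
  have hssq : ∀ i : ℕ, (Real.sin ((i : ℝ) * θ) + Real.sin (((i : ℝ) + 1) * θ)) ^ 2 =
      1 + Real.cos θ - Real.cos (2 * (i : ℝ) * θ) / 2 - Real.cos (2 * ((i : ℝ) + 1) * θ) / 2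
        - Real.cos ((2 * (i : ℝ) + 1) * θ) := by
    intro i
    have e1 : 2 * (i : ℝ) * θ = 2 * ((i : ℝ) * θ) := by ring
    have e2 : 2 * ((i : ℝ) + 1) * θ = 2 * (((i : ℝ) + 1) * θ) := by ring
    have e3 : (2 * (i : ℝ) + 1) * θ = (i : ℝ) * θ + ((i : ℝ) + 1) * θ := by ring
    have e4 : θ = ((i : ℝ) + 1) * θ - (i : ℝ) * θ := by ring
    have h1 := Real.sin_sq_eq_half_sub ((i : ℝ) * θ)
    have h2 := Real.sin_sq_eq_half_sub (((i : ℝ) + 1) * θ)
    have h3 : Real.cos θ = Real.cos (((i : ℝ) + 1) * θ) * Real.cos ((i : ℝ) * θ)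
        + Real.sin (((i : ℝ) + 1) * θ) * Real.sin ((i : ℝ) * θ) := by
      conv_lhs => rw [e4]
      rw [Real.cos_sub]
    rw [e1, e2, e3, Real.cos_add]
    linarith [h1, h2, h3]
  -- the two sums in closed form
  have hE1 : ∑ i ∈ range (n + 1), 4 * Real.cos ((i : ℝ) * θ) ^ 2 = 2 * (n : ℝ) + 3 := by
    simp only [hcsq]
    rw [sum_add_distrib, ← mul_sum, hA]
    simp
    ring
  have hE2 : ∑ i ∈ range n, 4 * Real.cos ((i : ℝ) * θ) ^ 2 = 2 * (n : ℝ) + 1 - 2 * Real.cos θ := by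
    simp only [hcsq]
    rw [sum_add_distrib, ← mul_sum, hA']
    simp
    ring
  have hQ : ∑ i ∈ range n, (Real.sin ((i : ℝ) * θ) + Real.sin (((i : ℝ) + 1) * θ)) ^ 2
      = ((n : ℝ) + 1 / 2) * (1 + Real.cos θ) := by
    simp only [hssq]
    rw [sum_sub_distrib, sum_sub_distrib, sum_sub_distrib, ← sum_div, ← sum_div, hA', hA'', hB]
    simp
    ring
  -- rewrite the two sums of the statement
  rw [← hθdef]
  obtain ⟨T, hT⟩ : ∃ T : ℕ → ℝ, T = fun k => (altP u u k)⁻¹ * fhTrA u u θ k ^ 2 := ⟨_, rfl⟩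
  have hTe : ∀ i, T (2 * i) = 4 * Real.cos ((i : ℝ) * θ) ^ 2 := by
    intro i; rw [hT]; exact term_even u θ hu i
  have hTo : ∀ i, T (2 * i + 1) = (u - 1) ^ 2 / u *
      (Real.sin ((i : ℝ) * θ) + Real.sin (((i : ℝ) + 1) * θ)) ^ 2 / Real.sin θ ^ 2 := by
    intro i; rw [hT]; exact term_odd u θ hu hS i
  have hs1 : ∑ k ∈ range (2 * n + 1 + 1), (altP u u k)⁻¹ * fhTrA u u θ k ^ 2
      = ∑ i ∈ range (n + 1), (T (2 * i) + T (2 * i + 1)) := by
    rw [show 2 * n + 1 + 1 = 2 * (n + 1) by ring, ← sum_range_two_mul, hT]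
  have hs2 : ∑ k ∈ Ico 1 (2 * n + 1), (altP u u k)⁻¹ * fhTrB u u θ k ^ 2
      = ∑ i ∈ range n, (T (2 * i) + T (2 * i + 1)) + T (2 * n) - T 0 := by
    have h1 : ∀ k ∈ Ico 1 (2 * n + 1), (altP u u k)⁻¹ * fhTrB u u θ k ^ 2 = T k := by
      intro k _; rw [hT, trB_eq_trA]
    rw [sum_congr rfl h1, sum_Ico_eq_sub T (by omega : 1 ≤ 2 * n + 1), sum_range_succ,
      sum_range_two_mul, sum_range_one]
  rw [hs1, hs2, sum_add_distrib, sum_add_distrib]
  have hT0 : T 0 = 4 := by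
    have := hTe 0
    simpa using this
  have hTn' : 4 * Real.cos ((n : ℝ) * θ) ^ 2 = 2 + 2 * Real.cos θ := by
    rw [hcsq n, hcos2n]
  have hQ' : ∑ x ∈ range n, (u - 1) ^ 2 / u *
      (Real.sin ((x : ℝ) * θ) + Real.sin (((x : ℝ) + 1) * θ)) ^ 2 / Real.sin θ ^ 2
      = (u - 1) ^ 2 / u * (((n : ℝ) + 1 / 2) * (1 + Real.cos θ)) / Real.sin θ ^ 2 := by
    rw [← sum_div, ← mul_sum, hQ]
  simp only [hTe, hTo]
  rw [hE1, hE2, hT0, hTn', sum_range_succ, hC, hQ', fhSigma_def, ← hθdef,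
    Real.sqrt_mul_self hu.le]
  push_cast
  field_simp
  ring

end Cfsg.Agent.Lib.Lead.FHT2
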