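import Mathlib

/-!
Recognition of the symmetric group of degree four: a group of order 24 with a
self-centralizing normal subgroup of order 4 is isomorphic to `Equiv.Perm (Fin 4)`.
-/

namespace Cfsg.Agent.Lib.Lead.S4Rec

variable {S : Type*} [Group S]

/-- An element of order dividing 3 commuting with a nontrivial element of a
self-centralizing normal subgroup of order 4 is trivial. -/
theorem eq_one_of_pow_three_of_commute (V : Subgroup S) [V.Normal]
    (hV : Nat.card V = 4) (hC : Subgroup.centralizer (V : Set S) ≤ V)
    {g z : S} (hg : g ^ 3 = 1) (hz : z ∈ V) (hz1 : z ≠ 1) (hgz : g * z = z * g) : g = 1 := by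
  classical
  -- conjugation by g
  have hconj : ∀ v : S, g * (g * (g * v * g⁻¹) * g⁻¹) * g⁻¹ = v := by
    intro v
    have h3 : g * g * g = 1 := by simpa [pow_succ] using hg
    have h3' : g⁻¹ * g⁻¹ * g⁻¹ = 1 := by
      have : (g * g * g)⁻¹ = 1 := by rw [h3, inv_one]
      rw [← this]; group
    calc g * (g * (g * v * g⁻¹) * g⁻¹) * g⁻¹ = (g * g * g) * v * (g⁻¹ * g⁻¹ * g⁻¹) := by group
      _ = v := by rw [h3, h3']; group
  have hinj : ∀ a b : S, g * a * g⁻¹ = g * b * g⁻¹ → a = b := by
    intro a b h
    have := congrArg (fun t => g⁻¹ * t * g) h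
    simpa [mul_assoc] using this
  have hzfix : g * z * g⁻¹ = z := by rw [hgz]; group
  have hmemV : ∀ v ∈ V, g * v * g⁻¹ ∈ V := fun v hv => Subgroup.Normal.conj_mem inferInstance v hv g
  -- g centralizes V
  have hcent : g ∈ Subgroup.centralizer (V : Set S) := by
    rw [Subgroup.mem_centralizer_iff]
    intro v hv
    by_contra hne
    have hne' : g * v * g⁻¹ ≠ v := by
      intro h
      apply hne
      have : g * v = v * g := by
        calc g * v = (g * v * g⁻¹) * g := by group
          _ = v * g := by rw [h]
      exact this.symm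
    obtain ⟨a, ha⟩ : ∃ a : S, a = v := ⟨_, rfl⟩
    rw [← ha] at hne' hv
    obtain ⟨b, hb⟩ : ∃ b : S, b = g * a * g⁻¹ := ⟨_, rfl⟩
    obtain ⟨d, hd⟩ : ∃ d : S, d = g * b * g⁻¹ := ⟨_, rfl⟩
    have hda : g * d * g⁻¹ = a := by rw [hd, hb]; exact hconj a
    have hbV : b ∈ V := by rw [hb]; exact hmemV a hv
    have hdV : d ∈ V := by rw [hd]; exact hmemV b hbV
    have hab : a ≠ b := fun h => hne' (by rw [← hb]; exact h.symm)
    have hbd : b ≠ d := fun h => hab (hinj a b (by rw [← hb, ← hd]; exact h))
    have had : a ≠ d := by
      intro h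
      apply hab
      have : g * a * g⁻¹ = g * d * g⁻¹ := by rw [← h]
      rw [hda, ← hb] at this
      exact this.symm
    have h1a : (1 : S) ≠ a := by
      intro h
      apply hne'
      rw [← h]; group
    have h1b : (1 : S) ≠ b := by
      intro h
      apply h1a
      apply hinj
      rw [← hb, ← h]; group
    have h1d : (1 : S) ≠ d := by
      intro h
      apply h1b
      apply hinj
      rw [← hd, ← h]; group
    have hza : z ≠ a := by
      intro h
      apply hne'
      rw [← h]; exact hzfix
    have hzb : z ≠ b := by
      intro h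
      apply hza
      apply hinj
      rw [← hb, hzfix]; exact h
    have hzd : z ≠ d := by
      intro h
      apply hzb
      apply hinj
      rw [← hd, hzfix]; exact h
    have h1z : (1 : S) ≠ z := fun h => hz1 h.symm
    have hcard5 : ({1, z, a, b, d} : Finset S).card = 5 := by
      rw [Finset.card_insert_of_notMem, Finset.card_insert_of_notMem,
        Finset.card_insert_of_notMem, Finset.card_insert_of_notMem, Finset.card_singleton]
      · simp [hbd]
      · simp [hab, had]
      · simp [hza, hzb, hzd]
      · simp [h1z, h1a, h1b, h1d]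
    have hsub : ((({1, z, a, b, d} : Finset S)) : Set S) ⊆ (V : Set S) := by
      intro x hx
      simp only [Finset.coe_insert, Finset.coe_singleton, Set.mem_insert_iff,
        Set.mem_singleton_iff] at hx
      rcases hx with rfl | rfl | rfl | rfl | rfl
      · exact V.one_mem
      · exact hz
      · exact hv
      · exact hbV
      · exact hdV
    have hVfin : (V : Set S).Finite := by
      have : Finite V := Nat.finite_of_card_ne_zero (by rw [hV]; norm_num)
      exact Set.toFinite _
    have h1 := Set.ncard_le_ncard hsub hVfin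
    rw [Set.ncard_coe_finset, hcard5] at h1
    have h2 : (V : Set S).ncard = 4 := by
      rw [← hV]; exact (Nat.card_coe_set_eq _).symm
    omega
  have hgV : g ∈ V := hC hcent
  have ho3 : orderOf g ∣ 3 := orderOf_dvd_of_pow_eq_one hg
  have ho4 : orderOf g ∣ 4 := by
    have := Subgroup.orderOf_dvd_natCard V hgV
    rwa [hV] at this
  have ho1 : orderOf g ∣ 1 := by
    have := Nat.dvd_gcd ho3 ho4
    simpa using this
  exact orderOf_eq_one_iff.mp (Nat.dvd_one.mp ho1)

/-- A group of order 24 with a self-centralizing normal subgroup of order 4 is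
isomorphic to the symmetric group of degree 4. -/
theorem nonempty_mulEquiv_perm_fin_four (hS : Nat.card S = 24) (V : Subgroup S) [V.Normal]
    (hV : Nat.card V = 4) (hC : Subgroup.centralizer (V : Set S) ≤ V) :
    Nonempty (S ≃* Equiv.Perm (Fin 4)) := by
  classical
  have : Finite S := Nat.finite_of_card_ne_zero (by rw [hS]; norm_num)
  have : Fact (Nat.Prime 3) := ⟨by norm_num⟩
  -- a nontrivial element of V
  obtain ⟨z, hzV, hz1⟩ : ∃ z ∈ V, z ≠ 1 := by
    by_contra hcon
    have hbot : V = ⊥ := by
      rw [eq_bot_iff]
      intro x hx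
      by_contra hx1
      exact hcon ⟨x, hx, by simpa using hx1⟩
    rw [hbot] at hV
    simp at hV
  -- a Sylow 3-subgroup and an element of order 3 in it
  let P : Sylow 3 S := default
  have hPcard : Nat.card P = 3 := by
    obtain ⟨n, hn⟩ := (IsPGroup.iff_card.mp P.isPGroup')
    have hdvd : Nat.card P ∣ 24 := by rw [← hS]; exact Subgroup.card_subgroup_dvd_card _
    have hidx : ¬ 3 ∣ (P : Subgroup S).index := P.not_dvd_index
    have hmul : Nat.card P * (P : Subgroup S).index = 24 := by
      rw [← hS]; exact Subgroup.card_mul_index _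
    rw [hn] at hdvd hmul ⊢
    rcases n with _ | _ | n
    · exfalso; apply hidx
      have : (P : Subgroup S).index = 24 := by simpa using hmul
      rw [this]; norm_num
    · norm_num
    · exfalso
      have h9 : 9 ∣ 24 := by
        refine Dvd.dvd.trans ?_ hdvd
        exact ⟨3 ^ n, by ring⟩
      omega
  have hPidx : (P : Subgroup S).index = 8 := by
    have hmul : Nat.card P * (P : Subgroup S).index = 24 := by
      rw [← hS]; exact Subgroup.card_mul_index _
    rw [hPcard] at hmul; omega
  -- elements of Sylow 3-subgroups have cube one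
  have hcube : ∀ (Q : Sylow 3 S) (x : S), x ∈ Q → x ^ 3 = 1 := by
    intro Q x hx
    have hQcard : Nat.card Q = 3 := by
      exact ((Sylow.card_eq_multiplicity Q).trans (Sylow.card_eq_multiplicity P).symm).trans hPcard
    have := Subgroup.orderOf_dvd_natCard (Q : Subgroup S) hx
    rw [hQcard] at this
    exact orderOf_dvd_iff_pow_eq_one.mp this
  obtain ⟨x, hxP, hx1⟩ : ∃ x ∈ (P : Subgroup S), x ≠ 1 := by
    by_contra hcon
    have hbot : (P : Subgroup S) = ⊥ := by
      rw [eq_bot_iff]
      intro y hy
      by_contra hy1
      exact hcon ⟨y, hy, by simpa using hy1⟩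
    have : Nat.card (P : Subgroup S) = 1 := by rw [hbot]; simp
    rw [hPcard] at this; omega
  have hx3 : x ^ 3 = 1 := hcube P x hxP
  -- P ∩ V is trivial
  have hPV : ∀ y : S, y ∈ (P : Subgroup S) → y ∈ V → y = 1 := by
    intro y hyP hyV
    have ho3 : orderOf y ∣ 3 := orderOf_dvd_of_pow_eq_one (hcube P y hyP)
    have ho4 : orderOf y ∣ 4 := by
      have := Subgroup.orderOf_dvd_natCard V hyV
      rwa [hV] at this
    have ho1 : orderOf y ∣ 1 := by
      have := Nat.dvd_gcd ho3 ho4
      simpa using this
    exact orderOf_eq_one_iff.mp (Nat.dvd_one.mp ho1)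
  -- an element of V normalizing P is trivial
  have hstep1 : ∀ w : S, w ∈ V → w • P = P → w = 1 := by
    intro w hwV hwP
    by_contra hw1
    have hwN : w ∈ Subgroup.normalizer ((P : Subgroup S) : Set S) :=
      Sylow.smul_eq_iff_mem_normalizer.mp hwP
    have hc1 : w * x * w⁻¹ ∈ (P : Subgroup S) := by
      have := (Subgroup.mem_normalizer_iff.mp hwN x).mp hxP
      exact this
    have hcP : w * x * w⁻¹ * x⁻¹ ∈ (P : Subgroup S) :=
      (P : Subgroup S).mul_mem hc1 ((P : Subgroup S).inv_mem hxP)
    have hcV : w * x * w⁻¹ * x⁻¹ ∈ V := by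
      have h1 : x * w⁻¹ * x⁻¹ ∈ V :=
        Subgroup.Normal.conj_mem inferInstance _ (V.inv_mem hwV) x
      have h2 : w * (x * w⁻¹ * x⁻¹) ∈ V := V.mul_mem hwV h1
      have e : w * x * w⁻¹ * x⁻¹ = w * (x * w⁻¹ * x⁻¹) := by group
      rw [e]; exact h2
    have hcomm : w * x * w⁻¹ * x⁻¹ = 1 := hPV _ hcP hcV
    have hxw : x * w = w * x := by
      have : w * x = x * w := by
        calc w * x = (w * x * w⁻¹ * x⁻¹) * (x * w) := by group
          _ = x * w := by rw [hcomm, one_mul]
      exact this.symm
    exact hx1 (eq_one_of_pow_three_of_commute V hV hC hx3 hwV hw1 hxw)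
  -- the number of Sylow 3-subgroups is 4
  have hn3 : Nat.card (Sylow 3 S) = 4 := by
    have hmod : Nat.card (Sylow 3 S) ≡ 1 [MOD 3] := card_sylow_modEq_one 3 S
    have hdvd : Nat.card (Sylow 3 S) ∣ 8 := by
      rw [← hPidx]; exact Sylow.card_dvd_index P
    have hle : Nat.card (Sylow 3 S) ≤ 8 := Nat.le_of_dvd (by norm_num) hdvd
    have hcases : Nat.card (Sylow 3 S) = 1 ∨ Nat.card (Sylow 3 S) = 4 := by
      unfold Nat.ModEq at hmod
      generalize Nat.card (Sylow 3 S) = n at hmod hdvd hle
      interval_cases n <;> simp_all
    rcases hcases with h1 | h4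
    · exfalso
      have : Subsingleton (Sylow 3 S) := (Nat.card_eq_one_iff_unique.mp h1).1
      exact hz1 (hstep1 z hzV (Subsingleton.elim _ _))
    · exact h4
  -- the action on the Sylow 3-subgroups is faithful
  let φ : S →* Equiv.Perm (Sylow 3 S) := MulAction.toPermHom S (Sylow 3 S)
  have hφinj : Function.Injective φ := by
    rw [injective_iff_map_eq_one]
    intro g hg
    have hfix : ∀ Q : Sylow 3 S, g • Q = Q := by
      intro Q
      have := DFunLike.congr_fun hg Q
      simpa [φ] using this
    have hfixinv : ∀ Q : Sylow 3 S, g⁻¹ • Q = Q := by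
      intro Q
      have := hfix Q
      calc g⁻¹ • Q = g⁻¹ • (g • Q) := by rw [this]
        _ = Q := by rw [inv_smul_smul]
    -- g centralizes V
    have hcent : g ∈ Subgroup.centralizer (V : Set S) := by
      rw [Subgroup.mem_centralizer_iff]
      intro v hv
      have hcV : g * v * g⁻¹ * v⁻¹ ∈ V :=
        V.mul_mem (Subgroup.Normal.conj_mem inferInstance v hv g) (V.inv_mem hv)
      have hcP : (g * v * g⁻¹ * v⁻¹) • P = P := by
        rw [mul_smul, mul_smul, mul_smul, hfixinv (v⁻¹ • P), smul_inv_smul, hfix P]
      have h1 : g * v * g⁻¹ * v⁻¹ = 1 := hstep1 _ hcV hcP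
      calc v * g = (g * v * g⁻¹ * v⁻¹)⁻¹ * (g * v) := by group
        _ = g * v := by rw [h1, inv_one, one_mul]
    exact hstep1 g (hC hcent) (hfix P)
  have hbij : Function.Bijective φ := by
    apply hφinj.bijective_of_nat_card_le
    rw [Nat.card_perm, hn3, hS]
    decide
  have e1 : S ≃* Equiv.Perm (Sylow 3 S) := MulEquiv.ofBijective φ hbij
  have e2 : Sylow 3 S ≃ Fin 4 := Finite.equivFinOfCardEq hn3
  exact ⟨e1.trans e2.permCongrHom⟩

/-- A non-commutative group of order 6 is isomorphic to the symmetric group of degree 3. -/
theorem nonempty_mulEquiv_perm_fin_three (hS : Nat.card S = 6)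
    (hnc : ∃ a b : S, a * b ≠ b * a) : Nonempty (S ≃* Equiv.Perm (Fin 3)) := by
  classical
  have : Finite S := Nat.finite_of_card_ne_zero (by rw [hS]; norm_num)
  have : Fact (Nat.Prime 2) := ⟨by norm_num⟩
  let P : Sylow 2 S := default
  have hcardQ : ∀ Q : Sylow 2 S, Nat.card Q = 2 := by
    intro Q
    obtain ⟨n, hn⟩ := (IsPGroup.iff_card.mp Q.isPGroup')
    have hdvd : Nat.card Q ∣ 6 := by rw [← hS]; exact Subgroup.card_subgroup_dvd_card _
    have hidx : ¬ 2 ∣ (Q : Subgroup S).index := Q.not_dvd_index
    have hmul : Nat.card Q * (Q : Subgroup S).index = 6 := by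
      rw [← hS]; exact Subgroup.card_mul_index _
    rw [hn] at hdvd hmul ⊢
    rcases n with _ | _ | n
    · exfalso; apply hidx
      have : (Q : Subgroup S).index = 6 := by simpa using hmul
      rw [this]; norm_num
    · norm_num
    · exfalso
      have h4 : 4 ∣ 6 := by
        refine Dvd.dvd.trans ?_ hdvd
        exact ⟨2 ^ n, by ring⟩
      omega
  have hPidx : (P : Subgroup S).index = 3 := by
    have hmul : Nat.card P * (P : Subgroup S).index = 6 := by
      rw [← hS]; exact Subgroup.card_mul_index _
    rw [hcardQ P] at hmul; omega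
  have hn2 : Nat.card (Sylow 2 S) = 3 := by
    have hmod : Nat.card (Sylow 2 S) ≡ 1 [MOD 2] := card_sylow_modEq_one 2 S
    have hdvd : Nat.card (Sylow 2 S) ∣ 3 := by
      rw [← hPidx]; exact Sylow.card_dvd_index P
    have hle : Nat.card (Sylow 2 S) ≤ 3 := Nat.le_of_dvd (by norm_num) hdvd
    have hcases : Nat.card (Sylow 2 S) = 1 ∨ Nat.card (Sylow 2 S) = 3 := by
      unfold Nat.ModEq at hmod
      generalize Nat.card (Sylow 2 S) = n at hmod hdvd hle
      interval_cases n <;> simp_all
    rcases hcases with h1 | h3
    · exfalso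
      have hsub : Subsingleton (Sylow 2 S) := (Nat.card_eq_one_iff_unique.mp h1).1
      have hPn : (P : Subgroup S).Normal := Sylow.normal_of_subsingleton P
      -- P is central
      have hPZ : (P : Subgroup S) ≤ Subgroup.center S := by
        intro t ht
        rw [Subgroup.mem_center_iff]
        intro g
        by_cases ht1 : t = 1
        · rw [ht1]; simp
        · have hconj : g * t * g⁻¹ ∈ (P : Subgroup S) := hPn.conj_mem t ht g
          -- P has exactly two elements, 1 and t
          have hz : Subgroup.zpowers t = (P : Subgroup S) := by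
            apply Subgroup.eq_of_le_of_card_ge
            · rw [Subgroup.zpowers_le]; exact ht
            · rw [hcardQ P, Nat.card_zpowers]
              have h1 : orderOf t ≠ 1 := fun h => ht1 (orderOf_eq_one_iff.mp h)
              have h0 : 0 < orderOf t := orderOf_pos t
              omega
          have ho : orderOf t = 2 := by
            rw [← Nat.card_zpowers, hz]; exact hcardQ P
          have ht2 : t ^ 2 = 1 := by rw [← ho]; exact pow_orderOf_eq_one t
          rw [← hz, Subgroup.mem_zpowers_iff] at hconj
          obtain ⟨k, hk⟩ := hconj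
          have hk' : t ^ k = 1 ∨ t ^ k = t := by
            rcases Int.emod_two_eq_zero_or_one k with h | h
            · left
              have : k = 2 * (k / 2) := by omega
              rw [this, zpow_mul]
              have : t ^ (2 : ℤ) = 1 := by exact_mod_cast ht2
              rw [this, one_zpow]
            · right
              have : k = 2 * (k / 2) + 1 := by omega
              rw [this, zpow_add, zpow_mul]
              have : t ^ (2 : ℤ) = 1 := by exact_mod_cast ht2
              rw [this, one_zpow, one_mul, zpow_one]
          rcases hk' with h | h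
          · exfalso
            rw [h] at hk
            apply ht1
            have : g⁻¹ * (g * t * g⁻¹) * g = 1 := by rw [← hk]; group
            rw [← this]; group
          · rw [h] at hk
            calc g * t = (g * t * g⁻¹) * g := by group
              _ = t * g := by rw [← hk]
      -- hence the quotient by the center is cyclic and S is commutative
      have hZcard : 2 ∣ Nat.card (Subgroup.center S) := by
        rw [← hcardQ P]
        exact Subgroup.card_dvd_of_le hPZ
      have hZmul : Nat.card (Subgroup.center S) * (Subgroup.center S).index = 6 := by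
        rw [← hS]; exact Subgroup.card_mul_index _
      have hidx13 : (Subgroup.center S).index = 1 ∨ (Subgroup.center S).index = 3 := by
        obtain ⟨c, hc⟩ := hZcard
        rw [hc] at hZmul
        have hcpos : 0 < c := by
          rcases Nat.eq_zero_or_pos c with h | h
          · rw [h] at hZmul; simp at hZmul
          · exact h
        have hle : (Subgroup.center S).index ≤ 3 := by
          by_contra hgt
          have h4 : 4 ≤ (Subgroup.center S).index := by omega
          have : 2 * c * 4 ≤ 2 * c * (Subgroup.center S).index := Nat.mul_le_mul_left _ h4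
          omega
        have hpos : 0 < (Subgroup.center S).index := by
          rcases Nat.eq_zero_or_pos (Subgroup.center S).index with h | h
          · rw [h] at hZmul; simp at hZmul
          · exact h
        have hne2 : (Subgroup.center S).index ≠ 2 := by
          intro h2
          rw [h2] at hZmul
          omega
        omega
      have hcyc : IsCyclic (S ⧸ Subgroup.center S) := by
        rcases hidx13 with h | h
        · have : Subsingleton (S ⧸ Subgroup.center S) :=
            (Nat.card_eq_one_iff_unique.mp (by rw [← Subgroup.index_eq_card]; exact h)).1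
          exact isCyclic_of_subsingleton
        · have : Fact (Nat.Prime 3) := ⟨by norm_num⟩
          exact isCyclic_of_prime_card (p := 3) (by rw [← Subgroup.index_eq_card]; exact h)
      have hcomm : IsMulCommutative S :=
        MonoidHom.isMulCommutative_of_isCyclic_of_ker_le_center
          (QuotientGroup.mk' (Subgroup.center S)) (by rw [QuotientGroup.ker_mk'])
      obtain ⟨a, b, hab⟩ := hnc
      exact hab (hcomm.is_comm.comm a b)
    · exact h3
  -- the action on the Sylow 2-subgroups is faithful
  let φ : S →* Equiv.Perm (Sylow 2 S) := MulAction.toPermHom S (Sylow 2 S)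
  have hφinj : Function.Injective φ := by
    rw [injective_iff_map_eq_one]
    intro g hg
    by_contra hg1
    have hfix : ∀ Q : Sylow 2 S, g • Q = Q := by
      intro Q
      have := DFunLike.congr_fun hg Q
      simpa [φ] using this
    have hgQ : ∀ Q : Sylow 2 S, Subgroup.zpowers g = (Q : Subgroup S) := by
      intro Q
      have hN : g ∈ Subgroup.normalizer ((Q : Subgroup S) : Set S) :=
        Sylow.smul_eq_iff_mem_normalizer.mp (hfix Q)
      have hNcard : Nat.card (Subgroup.normalizer ((Q : Subgroup S) : Set S)) = 2 := by
        have h1 : (Subgroup.normalizer ((Q : Subgroup S) : Set S)).index = 3 := by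
          have h0 := Sylow.card_eq_index_normalizer Q
          rw [hn2] at h0
          exact h0.symm
        have h2 : Nat.card (Subgroup.normalizer ((Q : Subgroup S) : Set S)) *
            (Subgroup.normalizer ((Q : Subgroup S) : Set S)).index = 6 := by
          rw [← hS]; exact Subgroup.card_mul_index _
        rw [h1] at h2; omega
      have hQN : (Q : Subgroup S) = Subgroup.normalizer ((Q : Subgroup S) : Set S) := by
        apply Subgroup.eq_of_le_of_card_ge
        · exact Subgroup.le_normalizer
        · rw [hNcard, hcardQ Q]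
      have hgQ' : g ∈ (Q : Subgroup S) := by rw [hQN]; exact hN
      apply Subgroup.eq_of_le_of_card_ge
      · rw [Subgroup.zpowers_le]; exact hgQ'
      · rw [hcardQ Q, Nat.card_zpowers]
        have h1 : orderOf g ≠ 1 := fun h => hg1 (orderOf_eq_one_iff.mp h)
        have h0 : 0 < orderOf g := orderOf_pos g
        omega
    have hsub : Subsingleton (Sylow 2 S) := by
      constructor
      intro Q1 Q2
      apply Sylow.ext
      rw [← hgQ Q1, ← hgQ Q2]
    have : Nat.card (Sylow 2 S) = 1 := Nat.card_eq_one_iff_unique.mpr ⟨hsub, ⟨P⟩⟩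
    omega
  have hbij : Function.Bijective φ := by
    apply hφinj.bijective_of_nat_card_le
    rw [Nat.card_perm, hn2, hS]
    decide
  have e1 : S ≃* Equiv.Perm (Sylow 2 S) := MulEquiv.ofBijective φ hbij
  have e2 : Sylow 2 S ≃ Fin 3 := Finite.equivFinOfCardEq hn2
  exact ⟨e1.trans e2.permCongrHom⟩

/-- A finite group generated in the sense of cardinality by two commuting subgroups with
trivial intersection is their direct product. -/
theorem nonempty_mulEquiv_prod_of_commute [Finite S] (T C : Subgroup S)
    (hcomm : ∀ t ∈ T, ∀ c ∈ C, t * c = c * t) (hdisj : ∀ x : S, x ∈ T → x ∈ C → x = 1)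
    (hcard : Nat.card S ≤ Nat.card T * Nat.card C) : Nonempty (S ≃* T × C) := by
  classical
  let f : T × C →* S :=
    MonoidHom.noncommCoprod T.subtype C.subtype (fun t c => hcomm t.1 t.2 c.1 c.2)
  have hf : ∀ x : T × C, f x = (x.1 : S) * (x.2 : S) := by
    intro x
    rfl
  have hinj : Function.Injective f := by
    rw [injective_iff_map_eq_one]
    intro x hx
    rw [hf] at hx
    have h1 : (x.1 : S) = ((x.2 : S))⁻¹ := eq_inv_of_mul_eq_one_left hx
    have h2 : (x.1 : S) = 1 := hdisj _ x.1.2 (by rw [h1]; exact C.inv_mem x.2.2)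
    have h3 : (x.2 : S) = 1 := by rw [h2, one_mul] at hx; exact hx
    ext
    · simpa using h2
    · simpa using h3
  have hbij : Function.Bijective f := by
    apply hinj.bijective_of_nat_card_le
    rw [Nat.card_prod]; exact hcard
  exact ⟨(MulEquiv.ofBijective f hbij).symm⟩

end Cfsg.Agent.Lib.Lead.S4Rec
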