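import Mathlib

/-!
# Piece ES-K5A of S5877 (helper44): a counting inequality for doubly periodic arrays, case `r ∣ e`
-/

set_option autoImplicit false

namespace Cfsg.Agent.Lib.Helper44.ES

theorem es_k5a (r : ℕ) (hr : r.Prime) (h5 : 5 ≤ r) (t e N : ℕ) (D : ℕ → ℕ → ℕ)
    (hper1 : ∀ k i, D (k + r) i = D k i) (hper2 : ∀ k i, D k (i + r) = D k i)
    (hstep : ∀ k i, D k i ≤ D (k + t + i) (i + e))
    (hbound : ∀ i, ∑ k ∈ Finset.range r, D k i ≤ N) (he : r ∣ e) :
    2 * ∑ i ∈ Finset.range r, D 0 i ≤ r * N := by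
  have hrpos : 0 < r := hr.pos
  have p1 : ∀ m k i, D (k + r * m) i = D k i := by
    intro m
    induction m with
    | zero => intro k i; simp
    | succ m ih => intro k i; rw [Nat.mul_succ, ← Nat.add_assoc, hper1, ih]
  have p2 : ∀ m k i, D k (i + r * m) = D k i := by
    intro m
    induction m with
    | zero => intro k i; simp
    | succ m ih => intro k i; rw [Nat.mul_succ, ← Nat.add_assoc, hper2, ih]
  have pmod : ∀ k i, D (k % r) i = D k i := by
    intro k i
    have h := p1 (k / r) (k % r) i
    rw [Nat.mod_add_div] at h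
    exact h.symm
  obtain ⟨m, rfl⟩ := he
  have step : ∀ k i, D k i ≤ D (k + (t + i)) i := by
    intro k i
    have h := hstep k i
    rwa [p2, Nat.add_assoc] at h
  have iter : ∀ i j, D 0 i ≤ D (j * (t + i)) i := by
    intro i j
    induction j with
    | zero => simp
    | succ j ih =>
      refine le_trans ih ?_
      have h := step (j * (t + i)) i
      rwa [← Nat.succ_mul] at h
  have good : ∀ i, ¬ r ∣ t + i → r * D 0 i ≤ N := by
    intro i hi
    have hcop : Nat.Coprime r (t + i) := (Nat.Prime.coprime_iff_not_dvd hr).2 hi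
    have hinj : Set.InjOn (fun j => (j * (t + i)) % r) (Finset.range r : Set ℕ) := by
      intro j1 h1 j2 h2 h
      have h1' : j1 < r := Finset.mem_range.1 h1
      have h2' : j2 < r := Finset.mem_range.1 h2
      have hmod : j1 * (t + i) ≡ j2 * (t + i) [MOD r] := h
      exact Nat.ModEq.eq_of_lt_of_lt (Nat.ModEq.cancel_right_of_coprime hcop hmod) h1' h2'
    have himg : (Finset.range r).image (fun j => (j * (t + i)) % r) = Finset.range r := by
      apply Finset.eq_of_subset_of_card_le
      · intro x hx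
        obtain ⟨j, -, rfl⟩ := Finset.mem_image.1 hx
        exact Finset.mem_range.2 (Nat.mod_lt _ hrpos)
      · rw [Finset.card_image_of_injOn hinj]
    calc r * D 0 i = ∑ _j ∈ Finset.range r, D 0 i := by simp
      _ ≤ ∑ j ∈ Finset.range r, D ((j * (t + i)) % r) i :=
          Finset.sum_le_sum (fun j _ => by rw [pmod]; exact iter i j)
      _ = ∑ k ∈ (Finset.range r).image (fun j => (j * (t + i)) % r), D k i :=
          (Finset.sum_image (f := fun k => D k i) hinj).symm
      _ = ∑ k ∈ Finset.range r, D k i := by rw [himg]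
      _ ≤ N := hbound i
  have bad : ∀ i, D 0 i ≤ N := fun i =>
    le_trans (Finset.single_le_sum (f := fun k => D k i) (fun _ _ => Nat.zero_le _)
      (Finset.mem_range.2 hrpos)) (hbound i)
  have hsplit := Finset.sum_filter_add_sum_filter_not (Finset.range r) (fun i => r ∣ t + i)
    (fun i => D 0 i)
  have hB : ∑ i ∈ (Finset.range r).filter (fun i => r ∣ t + i), D 0 i ≤ N := by
    have hcard : ((Finset.range r).filter (fun i => r ∣ t + i)).card ≤ 1 := by
      rw [Finset.card_le_one]
      intro a ha b hb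
      rw [Finset.mem_filter, Finset.mem_range] at ha hb
      have h : t + a ≡ t + b [MOD r] :=
        ((Nat.modEq_zero_iff_dvd).2 ha.2).trans ((Nat.modEq_zero_iff_dvd).2 hb.2).symm
      exact Nat.ModEq.eq_of_lt_of_lt (Nat.ModEq.add_left_cancel' t h) ha.1 hb.1
    calc ∑ i ∈ (Finset.range r).filter (fun i => r ∣ t + i), D 0 i
        ≤ ∑ _i ∈ (Finset.range r).filter (fun i => r ∣ t + i), N :=
          Finset.sum_le_sum (fun i _ => bad i)
      _ = ((Finset.range r).filter (fun i => r ∣ t + i)).card * N := by simp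
      _ ≤ 1 * N := Nat.mul_le_mul_right _ hcard
      _ = N := one_mul N
  have hG : ∑ i ∈ (Finset.range r).filter (fun i => ¬ r ∣ t + i), D 0 i ≤ N := by
    have h1 : r * ∑ i ∈ (Finset.range r).filter (fun i => ¬ r ∣ t + i), D 0 i ≤ r * N := by
      rw [Finset.mul_sum]
      calc ∑ i ∈ (Finset.range r).filter (fun i => ¬ r ∣ t + i), r * D 0 i
          ≤ ∑ _i ∈ (Finset.range r).filter (fun i => ¬ r ∣ t + i), N :=
            Finset.sum_le_sum (fun i hi => good i (Finset.mem_filter.1 hi).2)
        _ = ((Finset.range r).filter (fun i => ¬ r ∣ t + i)).card * N := by simp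
        _ ≤ r * N := Nat.mul_le_mul_right _
            (le_trans (Finset.card_filter_le _ _) (by simp))
    exact Nat.le_of_mul_le_mul_left h1 hrpos
  have hS : ∑ i ∈ Finset.range r, D 0 i ≤ 2 * N := by omega
  calc 2 * ∑ i ∈ Finset.range r, D 0 i ≤ 2 * (2 * N) := Nat.mul_le_mul_left _ hS
    _ = 4 * N := by ring
    _ ≤ r * N := Nat.mul_le_mul_right _ (by omega)

end Cfsg.Agent.Lib.Helper44.ES
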