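import Mathlib

/-!
# Piece ES-K5B of S5877 (helper44): a counting inequality for doubly periodic arrays, case `r ∤ e`
-/

set_option autoImplicit false

namespace Cfsg.Agent.Lib.Helper44.ES

/-- the first coordinate after `j` steps from `(0, i)` -/
def esk5bK (t e i j : ℕ) : ℕ := j * t + j * i + e * Nat.choose j 2

theorem esk5bK_succ (t e i j : ℕ) :
    esk5bK t e i (j + 1) = esk5bK t e i j + t + (i + j * e) := by
  unfold esk5bK
  rw [Nat.choose_succ_succ, Nat.choose_one_right]
  ring

theorem esk5bK_two (t e i j : ℕ) :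
    2 * esk5bK t e i j + e * j = 2 * j * t + 2 * j * i + e * j * j := by
  induction j with
  | zero => simp [esk5bK]
  | succ j ih =>
    rw [esk5bK_succ]
    nlinarith [ih]

theorem es_k5b (r : ℕ) (hr : r.Prime) (h5 : 5 ≤ r) (t e N : ℕ) (D : ℕ → ℕ → ℕ)
    (hper1 : ∀ k i, D (k + r) i = D k i) (hper2 : ∀ k i, D k (i + r) = D k i)
    (hstep : ∀ k i, D k i ≤ D (k + t + i) (i + e))
    (hbound : ∀ i, ∑ k ∈ Finset.range r, D k i ≤ N) (he : ¬ r ∣ e) :
    2 * ∑ i ∈ Finset.range r, D 0 i ≤ r * N := by
  have : Fact r.Prime := ⟨hr⟩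
  have : NeZero r := ⟨hr.ne_zero⟩
  have hrpos : 0 < r := hr.pos
  have p1 : ∀ m k i, D (k + r * m) i = D k i := by
    intro m
    induction m with
    | zero => intro k i; simp
    | succ m ih => intro k i; rw [Nat.mul_succ, ← Nat.add_assoc, hper1, ih]
  have p2 : ∀ m k i, D k (i + r * m) = D k i := by
    intro m
    induction m with
    | zero => intro k i; simp
    | succ m ih => intro k i; rw [Nat.mul_succ, ← Nat.add_assoc, hper2, ih]
  have pmod : ∀ k i, D (k % r) i = D k i := by
    intro k i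
    have h := p1 (k / r) (k % r) i
    rw [Nat.mod_add_div] at h
    exact h.symm
  have iter : ∀ i j, D 0 i ≤ D (esk5bK t e i j) (i + j * e) := by
    intro i j
    induction j with
    | zero => simp [esk5bK]
    | succ j ih =>
      refine le_trans ih ?_
      have h := hstep (esk5bK t e i j) (i + j * e)
      rw [esk5bK_succ, Nat.succ_mul, ← Nat.add_assoc i (j * e) e]
      rwa [Nat.add_assoc (esk5bK t e i j) t (i + j * e)] at h ⊢
  -- the field `ZMod r`
  have he0 : (e : ZMod r) ≠ 0 := fun h => he ((ZMod.natCast_eq_zero_iff e r).1 h)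
  obtain ⟨u, hu⟩ : ∃ u : ℕ → ZMod r, ∀ x : ℕ, u x * (e : ZMod r) = -(x : ZMod r) :=
    ⟨fun x => -(x : ZMod r) / (e : ZMod r), fun x => div_mul_cancel₀ _ he0⟩
  have hjj : ∀ x : ℕ, (((u x).val : ℕ) : ZMod r) = u x := fun x => ZMod.natCast_zmod_val (u x)
  have hdvd : ∀ x : ℕ, r ∣ x + (u x).val * e := by
    intro x
    rw [← ZMod.natCast_eq_zero_iff]
    push_cast
    rw [hjj, hu]
    ring
  have hK : ∀ x : ℕ, 2 * ((esk5bK t e x (u x).val : ℕ) : ZMod r) =
      2 * u x * t - e * (u x) ^ 2 - e * u x := by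
    intro x
    have h1 := congrArg (Nat.cast : ℕ → ZMod r) (esk5bK_two t e x (u x).val)
    push_cast at h1
    rw [hjj] at h1
    linear_combination h1 + 2 * u x * hu x
  -- the reduction map
  have hred : ∀ x : ℕ, D 0 x ≤ D (esk5bK t e x (u x).val % r) 0 := by
    intro x
    obtain ⟨m, hm⟩ := hdvd x
    have h := iter x (u x).val
    rw [hm] at h
    have h2 := p2 m (esk5bK t e x (u x).val) 0
    rw [Nat.zero_add] at h2
    rw [h2] at h
    rwa [pmod]
  -- fibres have at most two elements
  have hfib : ∀ k : ℕ, ((Finset.range r).filter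
      (fun x => esk5bK t e x (u x).val % r = k)).card ≤ 2 := by
    intro k
    by_contra hcon
    rw [not_le, Finset.two_lt_card] at hcon
    obtain ⟨a, ha, b, hb, c, hc, hab, hac, hbc⟩ := hcon
    rw [Finset.mem_filter, Finset.mem_range] at ha hb hc
    have hne : ∀ x y : ℕ, x < r → y < r → x ≠ y → u x ≠ u y := by
      intro x y hx hy hxy h
      have h1 : (x : ZMod r) = (y : ZMod r) := by
        have := hu x
        rw [h, hu y] at this
        exact neg_injective this.symm
      rw [ZMod.natCast_eq_natCast_iff] at h1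
      exact hxy (Nat.ModEq.eq_of_lt_of_lt h1 hx hy)
    have key : ∀ x y : ℕ, x < r → y < r → x ≠ y →
        esk5bK t e x (u x).val % r = esk5bK t e y (u y).val % r →
        (e : ZMod r) * (u x + u y) = 2 * t - e := by
      intro x y hx hy hxy hk
      have hk' : ((esk5bK t e x (u x).val : ℕ) : ZMod r) = ((esk5bK t e y (u y).val : ℕ) : ZMod r) :=
        (ZMod.natCast_eq_natCast_iff' _ _ r).2 hk
      have hprod : (u x - u y) * (2 * t - e * (u x + u y) - e) = 0 := by
        linear_combination -(hK x) + (hK y) + 2 * hk'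
      rcases mul_eq_zero.1 hprod with h | h
      · exact absurd (sub_eq_zero.1 h) (hne x y hx hy hxy)
      · linear_combination -h
    have kab := key a b ha.1 hb.1 hab (ha.2.trans hb.2.symm)
    have kac := key a c ha.1 hc.1 hac (ha.2.trans hc.2.symm)
    have hbc' : (b : ZMod r) = (c : ZMod r) := by
      linear_combination -kab + kac + hu b - hu c
    rw [ZMod.natCast_eq_natCast_iff] at hbc'
    exact hbc (Nat.ModEq.eq_of_lt_of_lt hbc' hb.1 hc.1)
  have hS : ∑ i ∈ Finset.range r, D 0 i ≤ 2 * N := by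
    calc ∑ i ∈ Finset.range r, D 0 i
        ≤ ∑ i ∈ Finset.range r, D (esk5bK t e i (u i).val % r) 0 :=
          Finset.sum_le_sum (fun i _ => hred i)
      _ = ∑ k ∈ Finset.range r, ∑ i ∈ (Finset.range r).filter
            (fun x => esk5bK t e x (u x).val % r = k), D k 0 :=
          (Finset.sum_fiberwise_of_maps_to'
            (g := fun x => esk5bK t e x (u x).val % r)
            (fun i _ => Finset.mem_range.2 (Nat.mod_lt _ hrpos)) (fun k => D k 0)).symm
      _ ≤ ∑ k ∈ Finset.range r, 2 * D k 0 := by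
          refine Finset.sum_le_sum (fun k _ => ?_)
          rw [Finset.sum_const, smul_eq_mul]
          exact Nat.mul_le_mul_right _ (hfib k)
      _ = 2 * ∑ k ∈ Finset.range r, D k 0 := by rw [Finset.mul_sum]
      _ ≤ 2 * N := Nat.mul_le_mul_left _ (hbound 0)
  calc 2 * ∑ i ∈ Finset.range r, D 0 i ≤ 2 * (2 * N) := Nat.mul_le_mul_left _ hS
    _ = 4 * N := by ring
    _ ≤ r * N := Nat.mul_le_mul_right _ (by omega)

end Cfsg.Agent.Lib.Helper44.ES
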