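import Mathlib

set_option autoImplicit false

/-! Piece CUBES of S2086 (helper48's board): a subring of a finite field `K`, `|K| ≠ 4`,
containing all cubes is everything. -/

namespace Cfsg.Agent.Lib.Helper48.Mul

section lead_cubes

variable {K : Type*} [Field K]

theorem lead_subring_inv_mem [Fintype K] (S : Subring K) (s : K) (hs : s ∈ S) (h0 : s ≠ 0) :
    s⁻¹ ∈ S := by
  have h1 : 1 < Fintype.card K := Fintype.one_lt_card
  have hp := FiniteField.pow_card_sub_one_eq_one s h0
  have he : Fintype.card K - 1 = (Fintype.card K - 2) + 1 := by omega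
  rw [he, pow_succ'] at hp
  have : s ^ (Fintype.card K - 2) = s⁻¹ := eq_inv_of_mul_eq_one_right hp
  rw [← this]
  exact S.pow_mem hs _

/-- piece CUBES -/
theorem cubes_top [Fintype K] (hK : Fintype.card K ≠ 4) (S : Subring K) (hS : ∀ x : K, x ^ 3 ∈ S) :
    S = ⊤ := by
  classical
  have hinv := lead_subring_inv_mem S
  by_cases h2 : (2 : K) = 0
  · -- characteristic 2
    have hq : ∀ a : K, a ∈ S ∨ a ^ 2 + a + 1 = 0 := by
      intro a
      by_cases ht : 1 + (a ^ 2 + a) = 0
      · right; linear_combination ht
      · left
        have hmem : a ^ 2 + a ∈ S := by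
          have : a ^ 2 + a = (a + 1) ^ 3 + a ^ 3 + 1 - 2 * (a ^ 3 + a ^ 2 + a + 1) := by ring
          rw [this, h2, zero_mul, sub_zero]
          exact S.add_mem (S.add_mem (hS _) (hS _)) S.one_mem
        have h1 : (1 + (a ^ 2 + a)) * a ∈ S := by
          have : (1 + (a ^ 2 + a)) * a = a ^ 3 - (a ^ 2 + a) + 2 * (a ^ 2 + a) := by ring
          rw [this, h2, zero_mul, add_zero]
          exact S.sub_mem (hS _) hmem
        have h3 := S.mul_mem (hinv _ (S.add_mem S.one_mem hmem) ht) h1
        rwa [inv_mul_cancel_left₀ ht] at h3
    by_contra hne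
    obtain ⟨w, hw⟩ : ∃ w, w ∉ S := by
      by_contra hall
      exact hne (eq_top_iff.mpr fun x _ => by_contra fun hx => hall ⟨x, hx⟩)
    have hw1 : w ^ 2 + w + 1 = 0 := (hq w).resolve_left hw
    have hS01 : ∀ s ∈ S, s = 0 ∨ s = 1 := by
      intro s hs
      have hsw : s + w ∉ S := fun h => hw (by simpa using S.sub_mem h hs)
      have h3 := (hq (s + w)).resolve_left hsw
      have h4 : s * (s + 1) = 0 := by linear_combination h3 - hw1 - (s * w) * h2
      rcases mul_eq_zero.mp h4 with h | h
      · left; exact h
      · right; linear_combination h - h2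
    have hall : ∀ x : K, x = 0 ∨ x = 1 ∨ x = w ∨ x = w + 1 := by
      intro x
      by_cases hx : x ∈ S
      · rcases hS01 x hx with h | h
        · left; exact h
        · right; left; exact h
      · have hx1 := (hq x).resolve_left hx
        have h4 : (x - w) * (x + w + 1) = 0 := by linear_combination hx1 - hw1
        rcases mul_eq_zero.mp h4 with h | h
        · right; right; left; exact sub_eq_zero.mp h
        · right; right; right; linear_combination h - (w + 1) * h2
    have hw0 : (0 : K) ≠ w := fun h => hw (h ▸ S.zero_mem)
    have hw1' : (1 : K) ≠ w := fun h => hw (h ▸ S.one_mem)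
    have hle : Fintype.card K ≤ 4 := by
      have hsub : (Finset.univ : Finset K) ⊆ {0, 1, w, w + 1} := by
        intro x _
        simp only [Finset.mem_insert, Finset.mem_singleton]
        exact hall x
      exact (Finset.card_le_card hsub).trans Finset.card_le_four
    have hge : 3 ≤ Fintype.card K := by
      have h3 : ({0, 1, w} : Finset K).card = 3 :=
        Finset.card_eq_three.mpr ⟨0, 1, w, zero_ne_one, hw0, hw1', rfl⟩
      rw [← h3]
      exact Finset.card_le_univ _
    have h3 : Fintype.card K = 3 := by omega
    have hc := Nat.cast_card_eq_zero K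
    rw [h3] at hc
    have : (1 : K) = 0 := by
      have hc' : (3 : K) = 0 := by exact_mod_cast hc
      linear_combination hc' - h2
    exact one_ne_zero this
  · by_cases h3 : (3 : K) = 0
    · -- characteristic 3: every element is a cube
      have hinj : Function.Injective (fun x : K => x ^ 3) := by
        intro x y hxy
        simp only at hxy
        have h0 : (x - y) ^ 3 = 0 := by linear_combination hxy - (x * y * (x - y)) * h3
        exact sub_eq_zero.mp ((pow_eq_zero_iff (by norm_num)).mp h0)
      have hsurj := Finite.surjective_of_injective hinj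
      refine eq_top_iff.mpr fun x _ => ?_
      obtain ⟨y, rfl⟩ := hsurj x
      exact hS y
    · refine eq_top_iff.mpr fun x _ => ?_
      have h6 : (6 : K) ≠ 0 := by
        have : (6 : K) = 2 * 3 := by norm_num
        rw [this]
        exact mul_ne_zero h2 h3
      have h2S : (2 : K) ∈ S := by
        have : (2 : K) = 1 + 1 := by norm_num
        rw [this]
        exact S.add_mem S.one_mem S.one_mem
      have h6S : (6 : K) ∈ S := by
        have : (6 : K) = 2 * (1 + 2) := by norm_num
        rw [this]
        exact S.mul_mem h2S (S.add_mem S.one_mem h2S)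
      have h6x : 6 * x ∈ S := by
        have : 6 * x = (x + 1) ^ 3 + (x - 1) ^ 3 - 2 * x ^ 3 := by ring
        rw [this]
        exact S.sub_mem (S.add_mem (hS _) (hS _)) (S.mul_mem h2S (hS _))
      have h7 := S.mul_mem (hinv 6 h6S h6) h6x
      rwa [inv_mul_cancel_left₀ h6] at h7

end lead_cubes

end Cfsg.Agent.Lib.Helper48.Mul
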