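import Mathlib

set_option autoImplicit false

/-! Piece FLD of S2086 (helper48's board): finite field elements with `s^2 ≠ 1` / `s^3 ≠ 1`. -/

namespace Cfsg.Agent.Lib.Helper48.Mul

section lead_fld

variable {K : Type*} [Field K]

theorem lead_exists_pow_ne_one [Fintype K] (m : ℕ) (h : ¬ (Fintype.card K - 1 ∣ m)) :
    ∃ s : K, s ≠ 0 ∧ s ^ m ≠ 1 := by
  classical
  obtain ⟨g, hg⟩ := IsCyclic.exists_generator (α := Kˣ)
  have hord : orderOf g = Fintype.card K - 1 := by
    rw [orderOf_eq_card_of_forall_mem_zpowers hg, Nat.card_eq_fintype_card, Fintype.card_units]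
  refine ⟨(g : K), g.ne_zero, fun h1 => h ?_⟩
  rw [← hord]
  apply orderOf_dvd_of_pow_eq_one
  ext
  simpa using h1

/-- piece FLD (1) -/
theorem exists_sq_ne_one [Fintype K] (h : 4 ≤ Fintype.card K) : ∃ s : K, s ≠ 0 ∧ s ^ 2 ≠ 1 := by
  apply lead_exists_pow_ne_one
  intro hd
  have := Nat.le_of_dvd (by norm_num) hd
  omega

/-- piece FLD (2) -/
theorem exists_cube_ne_one [Fintype K] (h2 : Fintype.card K ≠ 2) (h4 : Fintype.card K ≠ 4) :
    ∃ s : K, s ≠ 0 ∧ s ^ 3 ≠ 1 := by
  apply lead_exists_pow_ne_one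
  intro hd
  have h1 : 1 < Fintype.card K := Fintype.one_lt_card
  have hle := Nat.le_of_dvd (by norm_num) hd
  have h3 : Fintype.card K - 1 = 1 ∨ Fintype.card K - 1 = 3 := by
    rcases (Nat.dvd_prime Nat.prime_three).mp hd with h | h
    · left; exact h
    · right; exact h
  omega

end lead_fld

end Cfsg.Agent.Lib.Helper48.Mul
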