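import Mathlib

set_option autoImplicit false

/-!
S1417 piece BG11-BSB (core, Mathlib only): structure of a `p`-group `P` not centralizing its
subgroup `A = Ω₁(C_P(A))` of order `p ^ 2`.
-/

namespace Cfsg.Agent.Lib.Lead.BG11

variable {G : Type*} [Group G] [Finite G]

theorem bsb_core (p : ℕ) (A P : Subgroup G) (hp : p.Prime) (hP : IsPGroup p P) (hAP : A ≤ P)
    (hAcomm : ∀ a ∈ A, ∀ b ∈ A, a * b = b * a) (hAexp : ∀ a ∈ A, a ^ p = 1)
    (hAc : Nat.card A = p ^ 2)
    (hΩ : ∀ x ∈ P ⊓ Subgroup.centralizer (A : Set G), x ^ p = 1 → x ∈ A)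
    (hne : ¬ P ≤ Subgroup.centralizer (A : Set G)) :
    ∃ Z₀ : Subgroup G, Z₀ ≤ A ∧ Nat.card Z₀ = p ∧ P ≤ Subgroup.centralizer (Z₀ : Set G) ∧
      Subgroup.normalizer (P : Set G) ≤ Subgroup.normalizer (Z₀ : Set G) ∧
      (∃ u ∈ P ⊓ Subgroup.normalizer (A : Set G), u ∉ Subgroup.centralizer (A : Set G)) ∧
      ∀ X Y : Subgroup G, X ≤ A → Y ≤ A → Nat.card X = p → Nat.card Y = p → X ≠ Z₀ → Y ≠ Z₀ →
        ∃ u ∈ P ⊓ Subgroup.normalizer (A : Set G), Y = X.map (MulAut.conj u).toMonoidHom := by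
  classical
  have : Fact p.Prime := ⟨hp⟩
  have hp2 : 2 ≤ p := hp.two_le
  -- the subgroup Z₀ = Ω₁(Z(P))
  let Z₀ : Subgroup G :=
    { carrier := {x | x ∈ P ∧ (∀ y ∈ P, x * y = y * x) ∧ x ^ p = 1}
      mul_mem' := by
        rintro x y ⟨hx, hxc, hxp⟩ ⟨hy, hyc, hyp⟩
        refine ⟨P.mul_mem hx hy, ?_, ?_⟩
        · intro w hw
          calc x * y * w = x * (y * w) := mul_assoc _ _ _
            _ = x * (w * y) := by rw [hyc w hw]
            _ = (x * w) * y := (mul_assoc _ _ _).symm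
            _ = (w * x) * y := by rw [hxc w hw]
            _ = w * (x * y) := mul_assoc _ _ _
        · have hc : Commute x y := hxc y hy
          rw [hc.mul_pow, hxp, hyp, one_mul]
      one_mem' := ⟨P.one_mem, fun y _ => by rw [one_mul, mul_one], one_pow p⟩
      inv_mem' := by
        rintro x ⟨hx, hxc, hxp⟩
        refine ⟨P.inv_mem hx, ?_, by rw [inv_pow, hxp, inv_one]⟩
        intro w hw
        have h := hxc w hw
        calc x⁻¹ * w = x⁻¹ * (w * x) * x⁻¹ := by group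
          _ = x⁻¹ * (x * w) * x⁻¹ := by rw [h]
          _ = w * x⁻¹ := by group }
  have hZmem : ∀ x : G, x ∈ Z₀ ↔ x ∈ P ∧ (∀ y ∈ P, x * y = y * x) ∧ x ^ p = 1 := fun x => Iff.rfl
  have hAcent : ∀ a ∈ A, a ∈ Subgroup.centralizer (A : Set G) := by
    intro a ha
    rw [Subgroup.mem_centralizer_iff]
    intro b hb
    exact hAcomm b hb a ha
  have hZA : Z₀ ≤ A := by
    intro x hx
    obtain ⟨hxP, hxc, hxp⟩ := (hZmem x).mp hx
    have hxC : x ∈ Subgroup.centralizer (A : Set G) := by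
      rw [Subgroup.mem_centralizer_iff]
      intro b hb
      exact (hxc b (hAP hb)).symm
    exact hΩ x (Subgroup.mem_inf.mpr ⟨hxP, hxC⟩) hxp
  have hPZ : P ≤ Subgroup.centralizer (Z₀ : Set G) := by
    intro y hy
    rw [Subgroup.mem_centralizer_iff]
    intro z hz
    exact ((hZmem z).mp hz).2.1 y hy
  have hconjZ : ∀ g : G, g ∈ Subgroup.normalizer (P : Set G) → ∀ x ∈ Z₀, g * x * g⁻¹ ∈ Z₀ := by
    intro g hg x hx
    obtain ⟨hxP, hxc, hxp⟩ := (hZmem x).mp hx
    have hgP : ∀ y, y ∈ P ↔ g * y * g⁻¹ ∈ P := fun y => Subgroup.mem_normalizer_iff.mp hg y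
    refine (hZmem _).mpr ⟨(hgP x).mp hxP, ?_, ?_⟩
    · intro y hy
      have hy' : g⁻¹ * y * g ∈ P := by
        rw [hgP]
        have : g * (g⁻¹ * y * g) * g⁻¹ = y := by group
        rw [this]; exact hy
      have h := hxc _ hy'
      calc g * x * g⁻¹ * y = g * (x * (g⁻¹ * y * g)) * g⁻¹ := by group
        _ = g * ((g⁻¹ * y * g) * x) * g⁻¹ := by rw [h]
        _ = y * (g * x * g⁻¹) := by group
    · rw [conj_pow, hxp]; group
  have hNZ : Subgroup.normalizer (P : Set G) ≤ Subgroup.normalizer (Z₀ : Set G) := by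
    intro g hg
    rw [Subgroup.mem_normalizer_iff]
    intro x
    constructor
    · exact hconjZ g hg x
    · intro hx
      have h := hconjZ g⁻¹ (Subgroup.inv_mem _ hg) _ hx
      have e : g⁻¹ * (g * x * g⁻¹) * g⁻¹⁻¹ = x := by group
      rw [e] at h
      exact h
  -- Z₀ is nontrivial
  have hPnt : Nontrivial P := by
    by_contra hnt
    rw [not_nontrivial_iff_subsingleton] at hnt
    apply hne
    intro x hx
    have : (⟨x, hx⟩ : P) = 1 := Subsingleton.elim _ _
    have hx1 : x = 1 := congrArg Subtype.val this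
    rw [hx1]; exact Subgroup.one_mem _
  obtain ⟨z0, hz0Z, hz01⟩ : ∃ z ∈ Z₀, z ≠ 1 := by
    have := hP.center_nontrivial
    have hcp : IsPGroup p (Subgroup.center P) := hP.to_subgroup _
    obtain ⟨k, hk⟩ := IsPGroup.iff_card.mp hcp
    have hk0 : k ≠ 0 := by
      intro h0
      rw [h0, pow_zero] at hk
      have := Finite.one_lt_card (α := Subgroup.center P)
      omega
    have hdvd : p ∣ Nat.card (Subgroup.center P) := by
      rw [hk]; exact dvd_pow_self p hk0
    obtain ⟨x, hx⟩ := exists_prime_orderOf_dvd_card' (G := Subgroup.center P) p hdvd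
    refine ⟨((x : P) : G), (hZmem _).mpr ⟨(x : P).2, ?_, ?_⟩, ?_⟩
    · intro y hy
      have h := (Subgroup.mem_center_iff.mp x.2) ⟨y, hy⟩
      have h' := congrArg Subtype.val h
      exact h'.symm
    · have h : x ^ p = 1 := by rw [← hx]; exact pow_orderOf_eq_one x
      have h' := congrArg (fun t : Subgroup.center P => ((t : P) : G)) h
      simpa using h'
    · intro h1
      have hx1 : x = 1 := by
        apply Subtype.ext; apply Subtype.ext; simpa using h1
      rw [hx1, orderOf_one] at hx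
      omega
  -- card Z₀ = p
  have hZc : Nat.card Z₀ = p := by
    have hdvd : Nat.card Z₀ ∣ p ^ 2 := by rw [← hAc]; exact Subgroup.card_dvd_of_le hZA
    obtain ⟨m, hm, hmc⟩ := (Nat.dvd_prime_pow hp).mp hdvd
    interval_cases m
    · exfalso
      rw [pow_zero] at hmc
      have hbot : Z₀ = ⊥ := Subgroup.card_eq_one.mp hmc
      rw [hbot, Subgroup.mem_bot] at hz0Z
      exact hz01 hz0Z
    · rw [hmc, pow_one]
    · exfalso
      have hEq : Z₀ = A := Subgroup.eq_of_le_of_card_ge hZA (by rw [hmc, hAc])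
      apply hne
      intro y hy
      rw [Subgroup.mem_centralizer_iff]
      intro a ha
      rw [← hEq] at ha
      exact ((hZmem a).mp ha).2.1 y hy
  -- the element u
  let C : Subgroup G := P ⊓ Subgroup.centralizer (A : Set G)
  have hCP : C < P := by
    refine lt_of_le_of_ne inf_le_left ?_
    intro h
    apply hne
    rw [← h]
    exact inf_le_right
  obtain ⟨u, huP, huC, huC', hunC⟩ : ∃ u ∈ P, (∀ c ∈ C, u * c * u⁻¹ ∈ C) ∧
      (∀ c ∈ C, u⁻¹ * c * u ∈ C) ∧ u ∉ C := by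
    have hnil : Group.IsNilpotent P := hP.isNilpotent
    have hNC := Group.normalizerCondition_of_isNilpotent (G := P)
    have hlt : C.subgroupOf P < ⊤ := by
      rw [lt_top_iff_ne_top]
      intro h1
      rw [Subgroup.subgroupOf_eq_top] at h1
      exact (not_le_of_gt hCP) h1
    obtain ⟨n, hnN, hnC⟩ := SetLike.exists_of_lt (hNC _ hlt)
    refine ⟨n, n.2, ?_, ?_, hnC⟩
    · intro c hc
      exact (Subgroup.mem_normalizer_iff.1 hnN ⟨c, hCP.le hc⟩).1 hc
    · intro c hc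
      have hinv := Subgroup.inv_mem _ hnN
      have h := (Subgroup.mem_normalizer_iff.1 hinv ⟨c, hCP.le hc⟩).1 hc
      have h' := Subgroup.mem_subgroupOf.mp h
      simpa using h'
  have huA1 : ∀ a ∈ A, u * a * u⁻¹ ∈ A := by
    intro a ha
    have hc : a ∈ C := ⟨hAP ha, hAcent a ha⟩
    refine hΩ _ (huC a hc) ?_
    rw [conj_pow, hAexp a ha]; group
  have huA2 : ∀ a ∈ A, u⁻¹ * a * u ∈ A := by
    intro a ha
    have hc : a ∈ C := ⟨hAP ha, hAcent a ha⟩
    refine hΩ _ (huC' a hc) ?_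
    have e : u⁻¹ * a * u = u⁻¹ * a * u⁻¹⁻¹ := by group
    rw [e, conj_pow, hAexp a ha]; group
  have huNA : u ∈ Subgroup.normalizer (A : Set G) := by
    rw [Subgroup.mem_normalizer_iff]
    intro a
    constructor
    · exact huA1 a
    · intro h
      have h2 := huA2 _ h
      have e : u⁻¹ * (u * a * u⁻¹) * u = a := by group
      rw [e] at h2
      exact h2
  have hunA : u ∉ Subgroup.centralizer (A : Set G) := fun h => hunC ⟨huP, h⟩
  -- the commutator map z
  have hzA : ∀ a ∈ A, u * a * u⁻¹ * a⁻¹ ∈ A := fun a ha => A.mul_mem (huA1 a ha) (A.inv_mem ha)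
  have hzmul : ∀ a ∈ A, ∀ b ∈ A, u * (a * b) * u⁻¹ * (a * b)⁻¹ =
      (u * a * u⁻¹ * a⁻¹) * (u * b * u⁻¹ * b⁻¹) := by
    intro a ha b hb
    have h1 : (u * b * u⁻¹) * a⁻¹ = a⁻¹ * (u * b * u⁻¹) :=
      hAcomm _ (huA1 b hb) _ (A.inv_mem ha)
    have h0 : (a * b)⁻¹ = a⁻¹ * b⁻¹ := by
      rw [mul_inv_rev]; exact hAcomm _ (A.inv_mem hb) _ (A.inv_mem ha)
    calc u * (a * b) * u⁻¹ * (a * b)⁻¹ = u * (a * b) * u⁻¹ * (a⁻¹ * b⁻¹) := by rw [h0]
      _ = (u * a * u⁻¹) * ((u * b * u⁻¹) * a⁻¹) * b⁻¹ := by group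
      _ = (u * a * u⁻¹) * (a⁻¹ * (u * b * u⁻¹)) * b⁻¹ := by rw [h1]
      _ = (u * a * u⁻¹ * a⁻¹) * (u * b * u⁻¹ * b⁻¹) := by group
  -- kernel of z is Z₀
  have hzker : ∀ a ∈ A, u * a * u⁻¹ * a⁻¹ = 1 → a ∈ Z₀ := by
    let K : Subgroup G := A ⊓ Subgroup.centralizer ({u} : Set G)
    have hZK : Z₀ ≤ K := by
      intro x hx
      have hxu : x ∈ Subgroup.centralizer ({u} : Set G) := by
        rw [Subgroup.mem_centralizer_iff]
        intro w hw
        rw [Set.mem_singleton_iff] at hw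
        rw [hw]
        exact (((hZmem x).mp hx).2.1 u huP).symm
      exact Subgroup.mem_inf.mpr ⟨hZA hx, hxu⟩
    have hKA : K ≤ A := inf_le_left
    have hKne : K ≠ A := by
      intro h
      apply hunA
      rw [Subgroup.mem_centralizer_iff]
      intro a ha
      have haK : a ∈ K := by rw [h]; exact ha
      have := (Subgroup.mem_centralizer_iff.mp haK.2) u (Set.mem_singleton u)
      exact this.symm
    have hKc : Nat.card K = p := by
      have hdvd : Nat.card K ∣ p ^ 2 := by rw [← hAc]; exact Subgroup.card_dvd_of_le hKA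
      obtain ⟨m, hm, hmc⟩ := (Nat.dvd_prime_pow hp).mp hdvd
      have hpK : p ∣ Nat.card K := by rw [← hZc]; exact Subgroup.card_dvd_of_le hZK
      interval_cases m
      · exfalso
        rw [hmc, pow_zero] at hpK
        have := Nat.le_of_dvd (by norm_num) hpK
        omega
      · rw [hmc, pow_one]
      · exfalso
        exact hKne (Subgroup.eq_of_le_of_card_ge hKA (by rw [hmc, hAc]))
    have hZeqK : Z₀ = K := Subgroup.eq_of_le_of_card_ge hZK (by rw [hKc, hZc])
    intro a ha h1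
    rw [hZeqK]
    have hau : a ∈ Subgroup.centralizer ({u} : Set G) := by
      rw [Subgroup.mem_centralizer_iff]
      intro w hw
      rw [Set.mem_singleton_iff] at hw
      rw [hw]
      calc u * a = (u * a * u⁻¹ * a⁻¹) * (a * u) := by group
        _ = a * u := by rw [h1, one_mul]
    exact Subgroup.mem_inf.mpr ⟨ha, hau⟩
  have hzker' : ∀ a ∈ Z₀, u * a * u⁻¹ * a⁻¹ = 1 := by
    intro a ha
    have h := ((hZmem a).mp ha).2.1 u huP
    calc u * a * u⁻¹ * a⁻¹ = (u * a) * u⁻¹ * a⁻¹ := by group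
      _ = (a * u) * u⁻¹ * a⁻¹ := by rw [h]
      _ = 1 := by group
  -- the homomorphism z on A
  let zhom : A →* A :=
    { toFun := fun a => ⟨u * (a : G) * u⁻¹ * (a : G)⁻¹, hzA a a.2⟩
      map_one' := by apply Subtype.ext; simp
      map_mul' := by
        intro a b
        apply Subtype.ext
        exact hzmul a a.2 b b.2 }
  have hzhom : ∀ a : A, ((zhom a : A) : G) = u * (a : G) * u⁻¹ * (a : G)⁻¹ := fun a => rfl
  have hkerc : Nat.card zhom.ker = p := by
    have e : zhom.ker = Z₀.subgroupOf A := by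
      ext a
      rw [MonoidHom.mem_ker, Subgroup.mem_subgroupOf]
      constructor
      · intro h
        apply hzker a a.2
        have h' := congrArg Subtype.val h
        rw [hzhom] at h'
        exact h'
      · intro h
        apply Subtype.ext
        rw [hzhom]; exact hzker' a h
    rw [e, Nat.card_congr (Subgroup.subgroupOfEquivOfLe hZA).toEquiv, hZc]
  have hrangec : Nat.card zhom.range = p := by
    have h1 := Subgroup.card_mul_index zhom.ker
    rw [Subgroup.index_ker, hkerc, hAc] at h1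
    have hp0 : 0 < p := hp.pos
    have h2 : p * Nat.card zhom.range = p * p := by rw [h1]; ring
    exact Nat.eq_of_mul_eq_mul_left hp0 h2
  -- elements of A of order p
  have hordA : ∀ a ∈ A, a ≠ 1 → orderOf a = p := fun a ha ha1 =>
    orderOf_eq_prime (hAexp a ha) ha1
  -- a nontrivial element of the range
  obtain ⟨w, hwr, hw1⟩ : ∃ w ∈ zhom.range, w ≠ 1 := by
    have hnb : zhom.range ≠ ⊥ := by
      intro hb
      have := Subgroup.card_eq_one.mpr hb
      omega
    exact (Subgroup.ne_bot_iff_exists_ne_one.mp hnb).elim fun x hx => ⟨x.1, x.2, fun h => hx (Subtype.ext h)⟩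
  have hwG1 : (w : G) ≠ 1 := fun h => hw1 (Subtype.ext h)
  have hwp : orderOf w = p := by
    apply orderOf_eq_prime
    · apply Subtype.ext
      rw [Subgroup.coe_pow]
      exact hAexp _ w.2
    · exact hw1
  have hrange : zhom.range = Subgroup.zpowers w := by
    symm
    apply Subgroup.eq_of_le_of_card_ge
    · rw [Subgroup.zpowers_le]; exact hwr
    · rw [hrangec, Nat.card_zpowers, hwp]
  -- u fixes w
  have huw : u * (w : G) * u⁻¹ = (w : G) := by
    obtain ⟨a₀, ha₀⟩ := hwr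
    have hmem : zhom ⟨u * (a₀ : G) * u⁻¹, huA1 _ a₀.2⟩ ∈ Subgroup.zpowers w := by
      rw [← hrange]; exact ⟨_, rfl⟩
    rw [← mem_powers_iff_mem_zpowers, Submonoid.mem_powers_iff] at hmem
    obtain ⟨r, hr⟩ := hmem
    have hr' : (w : G) ^ r = u * (w : G) * u⁻¹ := by
      have h := congrArg Subtype.val hr
      rw [Subgroup.coe_pow, hzhom] at h
      rw [h, ← ha₀, hzhom]
      group
    have hiter : ∀ n : ℕ, u ^ n * (w : G) * (u ^ n)⁻¹ = (w : G) ^ (r ^ n) := by
      intro n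
      induction n with
      | zero => simp
      | succ n ih =>
        calc u ^ (n + 1) * (w : G) * (u ^ (n + 1))⁻¹
            = u * (u ^ n * (w : G) * (u ^ n)⁻¹) * u⁻¹ := by rw [pow_succ']; group
          _ = u * (w : G) ^ (r ^ n) * u⁻¹ := by rw [ih]
          _ = (u * (w : G) * u⁻¹) ^ (r ^ n) := by rw [conj_pow]
          _ = ((w : G) ^ r) ^ (r ^ n) := by rw [hr']
          _ = (w : G) ^ (r ^ (n + 1)) := by rw [← pow_mul, pow_succ']
    obtain ⟨m, hm⟩ := hP ⟨u, huP⟩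
    have hum : u ^ (p ^ m) = 1 := by
      have h := congrArg Subtype.val hm
      simpa using h
    have h1 := hiter (p ^ m)
    rw [hum] at h1
    have h2 : (w : G) ^ (r ^ (p ^ m)) = (w : G) ^ 1 := by
      rw [← h1]; simp
    have hwGp : orderOf (w : G) = p := hordA _ w.2 hwG1
    have h3 : r ^ (p ^ m) ≡ 1 [MOD p] := by
      have := pow_eq_pow_iff_modEq.mp h2
      rwa [hwGp] at this
    have h4 : r ^ (p ^ m) ≡ r [MOD p] := by
      rw [← ZMod.natCast_eq_natCast_iff]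
      push_cast
      exact ZMod.pow_card_pow (r : ZMod p)
    have h5 : r ≡ 1 [MOD p] := h4.symm.trans h3
    have h6 : (w : G) ^ r = (w : G) ^ 1 := by
      rw [pow_eq_pow_iff_modEq, hwGp]; exact h5
    rw [← hr', h6, pow_one]
  have hwZ : (w : G) ∈ Z₀ := by
    apply hzker _ w.2
    rw [huw]; group
  have hzZ : ∀ a ∈ A, u * a * u⁻¹ * a⁻¹ ∈ Z₀ := by
    intro a ha
    have hmem : zhom ⟨a, ha⟩ ∈ Subgroup.zpowers w := by
      rw [← hrange]; exact ⟨_, rfl⟩
    rw [Subgroup.mem_zpowers_iff] at hmem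
    obtain ⟨k, hk⟩ := hmem
    have h := congrArg Subtype.val hk
    rw [Subgroup.coe_zpow, hzhom] at h
    rw [← h]
    exact Z₀.zpow_mem hwZ k
  -- conjugation by powers of u
  have hpowconj : ∀ a ∈ A, ∀ n : ℕ, u ^ n * a * (u ^ n)⁻¹ = a * (u * a * u⁻¹ * a⁻¹) ^ n := by
    intro a ha n
    have hz := hzZ a ha
    have hzAa := hzA a ha
    have hu1 : u * a * u⁻¹ = (u * a * u⁻¹ * a⁻¹) * a := by group
    generalize u * a * u⁻¹ * a⁻¹ = z at hz hzAa hu1 ⊢
    have hzu : u * z * u⁻¹ = z := by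
      have h := ((hZmem _).mp hz).2.1 u huP
      calc u * z * u⁻¹ = (z * u) * u⁻¹ := by rw [h]
        _ = z := by group
    have hcomm : z * a = a * z := hAcomm _ hzAa _ ha
    induction n with
    | zero => simp
    | succ n ih =>
      calc u ^ (n + 1) * a * (u ^ (n + 1))⁻¹ = u * (u ^ n * a * (u ^ n)⁻¹) * u⁻¹ := by
            rw [pow_succ']; group
        _ = u * (a * z ^ n) * u⁻¹ := by rw [ih]
        _ = (u * a * u⁻¹) * (u * z ^ n * u⁻¹) := by group
        _ = (u * a * u⁻¹) * (u * z * u⁻¹) ^ n := by rw [conj_pow]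
        _ = (z * a) * z ^ n := by rw [hzu, hu1]
        _ = (a * z) * z ^ n := by rw [hcomm]
        _ = a * z ^ (n + 1) := by rw [pow_succ', mul_assoc]
  have hupow : ∀ n : ℕ, u ^ n ∈ P ⊓ Subgroup.normalizer (A : Set G) := fun n =>
    Subgroup.pow_mem _ (Subgroup.mem_inf.mpr ⟨huP, huNA⟩) n
  -- subgroups of order p generated by any nontrivial element
  have hgen : ∀ (X : Subgroup G), X ≤ A → Nat.card X = p → ∀ x ∈ X, x ≠ 1 →
      X = Subgroup.zpowers x := by
    intro X hXA hXc x hx hx1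
    symm
    apply Subgroup.eq_of_le_of_card_ge
    · rw [Subgroup.zpowers_le]; exact hx
    · rw [hXc, Nat.card_zpowers, hordA x (hXA hx) hx1]
  refine ⟨Z₀, hZA, hZc, hPZ, hNZ, ⟨u, Subgroup.mem_inf.mpr ⟨huP, huNA⟩, hunA⟩, ?_⟩
  intro X Y hXA hYA hXc hYc hXZ hYZ
  -- a generator of X outside Z₀
  obtain ⟨a, haX, haZ⟩ : ∃ a ∈ X, a ∉ Z₀ := by
    by_contra hcon
    apply hXZ
    apply Subgroup.eq_of_le_of_card_ge
    · intro x hx
      by_contra hxZ
      exact hcon ⟨x, hx, hxZ⟩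
    · rw [hXc, hZc]
  have haA : a ∈ A := hXA haX
  have ha1 : a ≠ 1 := fun h => haZ (h ▸ Z₀.one_mem)
  have hXa : X = Subgroup.zpowers a := hgen X hXA hXc a haX ha1
  have hza1 : u * a * u⁻¹ * a⁻¹ ≠ 1 := fun h => haZ (hzker a haA h)
  have hzaZ : u * a * u⁻¹ * a⁻¹ ∈ Z₀ := hzZ a haA
  have hZgen : Z₀ = Subgroup.zpowers (u * a * u⁻¹ * a⁻¹) := hgen Z₀ hZA hZc _ hzaZ hza1
  -- Y meets Z₀ trivially
  have hYZ0 : ∀ y ∈ Y, y ∈ Z₀ → y = 1 := by
    intro y hy hyZ
    by_contra hy1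
    apply hYZ
    rw [hgen Y hYA hYc y hy hy1, hgen Z₀ hZA hZc y hyZ hy1]
  -- z restricted to Y is a bijection onto Z₀
  let f : Y → Z₀ := fun y => ⟨u * (y : G) * u⁻¹ * (y : G)⁻¹, hzZ _ (hYA y.2)⟩
  have hfinj : Function.Injective f := by
    intro y1 y2 h
    have h' : u * (y1 : G) * u⁻¹ * (y1 : G)⁻¹ = u * (y2 : G) * u⁻¹ * (y2 : G)⁻¹ :=
      congrArg Subtype.val h
    have hd : (y1 : G) * (y2 : G)⁻¹ ∈ A := A.mul_mem (hYA y1.2) (A.inv_mem (hYA y2.2))
    have hmul := hzmul _ hd _ (hYA y2.2)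
    have e : (y1 : G) * (y2 : G)⁻¹ * (y2 : G) = (y1 : G) := by group
    rw [e, h'] at hmul
    have hk : u * ((y1 : G) * (y2 : G)⁻¹) * u⁻¹ * ((y1 : G) * (y2 : G)⁻¹)⁻¹ = 1 := by
      have := mul_eq_right.mp hmul.symm
      exact this
    have hZ1 := hzker _ hd hk
    have h1 := hYZ0 _ (Y.mul_mem y1.2 (Y.inv_mem y2.2)) hZ1
    apply Subtype.ext
    exact mul_inv_eq_one.mp h1
  have hfbij : Function.Bijective f := by
    apply hfinj.bijective_of_nat_card_le
    rw [hYc, hZc]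
  obtain ⟨y, hy⟩ := hfbij.2 ⟨u * a * u⁻¹ * a⁻¹, hzaZ⟩
  have hy' : u * (y : G) * u⁻¹ * (y : G)⁻¹ = u * a * u⁻¹ * a⁻¹ := congrArg Subtype.val hy
  have hyA : (y : G) ∈ A := hYA y.2
  -- y a⁻¹ ∈ Z₀
  have hd : (y : G) * a⁻¹ ∈ A := A.mul_mem hyA (A.inv_mem haA)
  have hdZ : (y : G) * a⁻¹ ∈ Z₀ := by
    apply hzker _ hd
    have hmul := hzmul _ hd _ haA
    have e : (y : G) * a⁻¹ * a = (y : G) := by group
    rw [e, hy'] at hmul
    exact mul_eq_right.mp hmul.symm
  rw [hZgen, ← mem_powers_iff_mem_zpowers, Submonoid.mem_powers_iff] at hdZ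
  obtain ⟨n, hn⟩ := hdZ
  have hyconj : u ^ n * a * (u ^ n)⁻¹ = (y : G) := by
    rw [hpowconj a haA n, hn]
    have hc : a * ((y : G) * a⁻¹) = ((y : G) * a⁻¹) * a := hAcomm _ haA _ hd
    rw [hc]; group
  have hy1 : (y : G) ≠ 1 := by
    intro h
    apply hza1
    rw [← hy', h]; group
  refine ⟨u ^ n, hupow n, ?_⟩
  rw [hXa, MonoidHom.map_zpowers]
  have e : (MulAut.conj (u ^ n)).toMonoidHom a = (y : G) := by
    rw [← hyconj]; rfl
  rw [e]
  exact hgen Y hYA hYc _ y.2 hy1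

end Cfsg.Agent.Lib.Lead.BG11
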