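import Mathlib
import Cfsg.Prelude.Def_LieTypeChar
import Cfsg.Agent.Lib.Lead.LTBCore
import Cfsg.Agent.Lib.Lead.LTBDefs

/-!
S2363 assembly: from the sixteen family statements and the order formulas to the theorem.
-/

set_option autoImplicit false

namespace Cfsg.Agent.Lib.Lead.LTB

open Cfsg

/-- The order formulas used (each is a landed statement). -/
structure Cards : Prop where
  psl : ∀ (F : Type) [Field F] [Fintype F] (n : ℕ), 2 ≤ n →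
    Nat.gcd n (Fintype.card F - 1) * ((Fintype.card F - 1) *
        Nat.card (Matrix.ProjectiveSpecialLinearGroup (Fin n) F)) =
      ∏ i : Fin n, (Fintype.card F ^ n - Fintype.card F ^ (i : ℕ))
  sp : ∀ (F : Type) [Field F] [Fintype F] (m : ℕ),
    Nat.card (Matrix.symplecticGroup (Fin m) F) =
      Fintype.card F ^ (m ^ 2) * ∏ i ∈ Finset.range m, (Fintype.card F ^ (2 * (i + 1)) - 1)
  spc : ∀ (F : Type) [Field F] [Fintype F] (m : ℕ), 1 ≤ m →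
    Nat.card (Subgroup.center (Matrix.symplecticGroup (Fin m) F)) = Nat.gcd 2 (Fintype.card F - 1)
  psu : ∀ (F : Type) [Field F] [Fintype F] (n q : ℕ), Fintype.card F = q ^ 2 → 2 ≤ n →
    Nat.gcd n (q + 1) * ((q + 1) * Nat.card (PSU n F q)) =
      q ^ (n * (n - 1) / 2) *
        ∏ i ∈ Finset.range n, (if Even i then q ^ (i + 1) + 1 else q ^ (i + 1) - 1)
  oodd : ∀ (F : Type) [Field F] [Fintype F] (m : ℕ), Odd (Fintype.card F) → 3 ≤ m →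
    2 * Nat.card (POmega F (quadFormOdd m F)) =
      Fintype.card F ^ (m ^ 2) * ∏ i ∈ Finset.range m, (Fintype.card F ^ (2 * (i + 1)) - 1)
  oplus : ∀ (F : Type) [Field F] [Fintype F] (m : ℕ), 4 ≤ m →
    Nat.gcd 4 (Fintype.card F ^ m - 1) * Nat.card (POmega F (quadFormPlus m F)) =
      Fintype.card F ^ (m * (m - 1)) * (Fintype.card F ^ m - 1) *
        ∏ i ∈ Finset.range (m - 1), (Fintype.card F ^ (2 * (i + 1)) - 1)
  ominus : ∀ (F : Type) [Field F] [Fintype F] (m : ℕ), 4 ≤ m → ∀ (a b : F),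
    (∀ z₁ z₂ : F, z₁ ^ 2 + a * z₁ * z₂ + b * z₂ ^ 2 = 0 → z₁ = 0 ∧ z₂ = 0) →
    Nat.gcd 4 (Fintype.card F ^ m + 1) * Nat.card (POmega F (quadFormMinus (m - 1) F a b)) =
      Fintype.card F ^ (m * (m - 1)) * (Fintype.card F ^ m + 1) *
        ∏ i ∈ Finset.range (m - 1), (Fintype.card F ^ (2 * (i + 1)) - 1)
  g2 : ∀ (F : Type) [Field F] [Fintype F],
    Nat.card ↥(Lie.chevG2.group F) =
      Fintype.card F ^ 6 * (Fintype.card F ^ 2 - 1) * (Fintype.card F ^ 6 - 1)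
  f4 : ∀ (F : Type) [Field F] [Fintype F],
    Nat.card ↥(Lie.chevF4.group F) =
      Fintype.card F ^ 24 * (Fintype.card F ^ 2 - 1) * (Fintype.card F ^ 6 - 1) *
        (Fintype.card F ^ 8 - 1) * (Fintype.card F ^ 12 - 1)
  e6 : ∀ (F : Type) [Field F] [Fintype F],
    Nat.gcd 3 (Fintype.card F - 1) * Nat.card ↥(Lie.chevE6.group F) =
      Fintype.card F ^ 36 * (Fintype.card F ^ 2 - 1) * (Fintype.card F ^ 5 - 1) *
        (Fintype.card F ^ 6 - 1) * (Fintype.card F ^ 8 - 1) * (Fintype.card F ^ 9 - 1) *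
        (Fintype.card F ^ 12 - 1)
  e7 : ∀ (F : Type) [Field F] [Fintype F],
    Nat.gcd 2 (Fintype.card F - 1) * Nat.card ↥(Lie.chevE7.group F) =
      Fintype.card F ^ 63 * (Fintype.card F ^ 2 - 1) * (Fintype.card F ^ 6 - 1) *
        (Fintype.card F ^ 8 - 1) * (Fintype.card F ^ 10 - 1) * (Fintype.card F ^ 12 - 1) *
        (Fintype.card F ^ 14 - 1) * (Fintype.card F ^ 18 - 1)
  e8 : ∀ (F : Type) [Field F] [Fintype F],
    Nat.card ↥(Lie.chevE8.group F) =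
      Fintype.card F ^ 120 * (Fintype.card F ^ 2 - 1) * (Fintype.card F ^ 8 - 1) *
        (Fintype.card F ^ 12 - 1) * (Fintype.card F ^ 14 - 1) * (Fintype.card F ^ 18 - 1) *
        (Fintype.card F ^ 20 - 1) * (Fintype.card F ^ 24 - 1) * (Fintype.card F ^ 30 - 1)
  twe6 : ∀ (K : Type) [Field K] [Fintype K] (q : ℕ), IsPrimePow q → Fintype.card K = q ^ 2 →
    Nat.gcd 3 (q + 1) * Nat.card ↥(Lie.twistedE6 K q) =
      q ^ 36 * (q ^ 2 - 1) * (q ^ 5 + 1) * (q ^ 6 - 1) * (q ^ 8 - 1) * (q ^ 9 + 1) * (q ^ 12 - 1)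
  twd4 : ∀ (K : Type) [Field K] [Fintype K] (q : ℕ), IsPrimePow q → Fintype.card K = q ^ 3 →
    Nat.card ↥(Lie.twistedD4 K q) = q ^ 12 * (q ^ 2 - 1) * (q ^ 6 - 1) * (q ^ 8 + q ^ 4 + 1)
  sz : ∀ (F : Type) [Field F] [Fintype F] (m : ℕ), 1 ≤ m → Fintype.card F = 2 ^ (2 * m + 1) →
    Nat.card ↥(Lie.Sz F (2 ^ (m + 1))) =
      (2 ^ (2 * m + 1)) ^ 2 * (2 ^ (2 * m + 1) - 1) * ((2 ^ (2 * m + 1)) ^ 2 + 1)

/-- The sixteen family statements. -/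
structure Pieces : Prop where
  psl : PslStmt
  psp : PspStmt
  psu : PsuStmt
  oodd : OmegaOddStmt
  oplus : OmegaPlusStmt
  ominus : OmegaMinusStmt
  g2 : G2Stmt
  f4 : F4Stmt
  e6 : E6Stmt
  e7 : E7Stmt
  e8 : E8Stmt
  twe6 : TwE6Stmt
  twd4 : TwD4Stmt
  sz : SzStmt
  ree : ReeFact
  twf4 : TwF4Fact

theorem main (P : Pieces) (C : Cards) {G : Type*} [Group G] [Finite G] (p : ℕ) (hp : p.Prime)
    (hG : IsLieTypeChar p G) : Goal p G := by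
  rcases hG with h | h | h | h | h | h | h | h | h | h | h
  · obtain ⟨F, _, _, _, n, hn, hn2, ⟨e⟩⟩ := h
    exact goal_of_mulEquiv p e (P.psl p hp F n hn hn2 (C.psl F n hn))
  · obtain ⟨F, _, _, _, m, hm, _, ⟨e⟩⟩ := h
    exact goal_of_mulEquiv p e (P.psp p hp F m hm (C.sp F m) (C.spc F m (by omega)))
  · obtain ⟨F, _, _, _, n, q, hF, hn, _, ⟨e⟩⟩ := h
    exact goal_of_mulEquiv p e (P.psu p hp F n q hF hn (C.psu F n q hF (by omega)))
  · obtain ⟨F, _, _, _, m, hm, hodd, ⟨e⟩⟩ := h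
    exact goal_of_mulEquiv p e (P.oodd p hp F m hm hodd (C.oodd F m hodd hm))
  · obtain ⟨F, _, _, _, m, hm, ⟨e⟩⟩ := h
    exact goal_of_mulEquiv p e (P.oplus p hp F m hm (C.oplus F m hm))
  · obtain ⟨F, _, _, _, m, a, b, hm, hab, ⟨e⟩⟩ := h
    exact goal_of_mulEquiv p e (P.ominus p hp F m a b hm (C.ominus F m hm a b hab))
  · obtain ⟨F, _, _, _, h⟩ := h
    rcases h with ⟨_, ⟨e⟩⟩ | ⟨⟨e⟩⟩ | ⟨⟨e⟩⟩ | ⟨⟨e⟩⟩ | ⟨⟨e⟩⟩
    · exact goal_of_mulEquiv p e (P.g2 p hp F (C.g2 F))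
    · exact goal_of_mulEquiv p e (P.f4 p hp F (C.f4 F))
    · exact goal_of_mulEquiv p e (P.e6 p hp F (C.e6 F))
    · exact goal_of_mulEquiv p e (P.e7 p hp F (C.e7 F))
    · exact goal_of_mulEquiv p e (P.e8 p hp F (C.e8 F))
  · obtain ⟨K, _, _, _, q, hq, h⟩ := h
    rcases h with ⟨hK, ⟨e⟩⟩ | ⟨hK, ⟨e⟩⟩
    · exact goal_of_mulEquiv p e (P.twe6 p hp K q hq hK (C.twe6 K q hq hK))
    · exact goal_of_mulEquiv p e (P.twd4 p hp K q hq hK (C.twd4 K q hq hK))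
  · obtain ⟨rfl, F, _, _, m, hm, hF, ⟨e⟩⟩ := h
    exact goal_of_mulEquiv 2 e (P.sz F m hm hF (C.sz F m hm hF))
  · obtain ⟨rfl, K, _, _, m, hm, hK, ⟨e⟩⟩ := h
    obtain ⟨h1, h2⟩ := P.twf4 K m hm hK
    exact goal_of_mulEquiv 2 e (goal_of_q_bounds 2 hp (2 * m + 1) 12 32 h1 h2 (by norm_num))
  · obtain ⟨rfl, K, _, _, m, hm, hK, ⟨e⟩⟩ := h
    obtain ⟨h1, h2⟩ := P.ree K m hm hK
    exact goal_of_mulEquiv 3 e (goal_of_q_bounds 3 hp (2 * m + 1) 3 8 h1 h2 (by norm_num))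

end Cfsg.Agent.Lib.Lead.LTB
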