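import Mathlib
import Cfsg.Prelude.Def_GeometricClasses
import Cfsg.Agent.Lib.Helper98.TDBase

set_option autoImplicit false

namespace Cfsg.Agent.Lib.Helper98.TD

open Matrix Polynomial
open scoped Kronecker

universe u

theorem exists_transv_elt {F : Type*} [Field F] (p : ℕ) [Fact p.Prime] [CharP F p] (n : ℕ) (hn : 2 ≤ n) :
    ∃ M : Matrix (Fin n) (Fin n) F, M.det = 1 ∧ M ^ p = 1 ∧ (M - 1).rank = 1 := by
  classical
  let i : Fin n := ⟨0, by omega⟩
  let j : Fin n := ⟨1, by omega⟩
  have hij : i ≠ j := by
    intro h
    have := congrArg Fin.val h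
    simp [i, j] at this
  refine ⟨Matrix.transvection i j (1 : F), Matrix.det_transvection_of_ne i j hij 1, ?_, ?_⟩
  · have hpow : ∀ k : ℕ, Matrix.transvection i j (1 : F) ^ k = Matrix.transvection i j (k : F) := by
      intro k
      induction k with
      | zero => simp [Matrix.transvection_zero]
      | succ k ih =>
        rw [pow_succ, ih, Matrix.transvection_mul_transvection_same i j hij]
        push_cast
        rfl
    rw [hpow p, CharP.cast_eq_zero, Matrix.transvection_zero]
  · have e : Matrix.transvection i j (1 : F) - 1 = Matrix.single i j (1 : F) := by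
      simp [Matrix.transvection]
    rw [e]
    apply le_antisymm
    · rw [Matrix.single_eq_single_vecMulVec_single]
      exact Matrix.rank_vecMulVec_le _ _
    · by_contra hlt
      have h0 : (Matrix.single i j (1 : F)).rank = 0 := by omega
      have hr := h0
      rw [Matrix.rank, Submodule.finrank_eq_zero, LinearMap.range_eq_bot] at hr
      have h1 := congrArg (fun f => f (Pi.single j (1 : F)) i) hr
      simp [Matrix.mulVecLin_apply, Matrix.mulVec, dotProduct, Matrix.single_apply] at h1

end Cfsg.Agent.Lib.Helper98.TD
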